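import Mathlib

/-!
Involutions of a four-fold transitive group with an odd four-point stabiliser.
-/

set_option autoImplicit false

namespace CfsgLib.JordanFour

variable {G α : Type*} [Group G] [MulAction G α]

/-- `u` acts on the tuple as `π` does on the indices. -/
def Pat (u : G) (π : Fin 4 → Fin 4) (y : Fin 4 ↪ α) : Prop := ∀ i, u • y i = y (π i)

theorem smul_eq_iff_all {g : G} {y z : Fin 4 ↪ α} : g • y = z ↔ ∀ i, g • y i = z i := by
  rw [DFunLike.ext_iff]; rfl

theorem mem_stab_iff {g : G} {y : Fin 4 ↪ α} : g ∈ MulAction.stabilizer G y ↔ ∀ i, g • y i = y i :=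
  smul_eq_iff_all

theorem pat_conj {u g : G} {π : Fin 4 → Fin 4} {y z : Fin 4 ↪ α} (h : Pat u π y) (hg : g • y = z) :
    Pat (g * u * g⁻¹) π z := fun i => by
  rw [← (smul_eq_iff_all.1 hg) i, smul_smul, inv_mul_cancel_right, mul_smul, h i, (smul_eq_iff_all.1 hg)]

theorem pat_conj_stab {u h : G} {π : Fin 4 → Fin 4} {y : Fin 4 ↪ α} (hp : Pat u π y)
    (hh : h ∈ MulAction.stabilizer G y) : Pat (h * u * h⁻¹) π y :=
  pat_conj hp (MulAction.mem_stabilizer_iff.1 hh)

/-- The hypotheses of Jordan's theorem, with at least seven points not yet assumed. -/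
structure Setup (G α : Type*) [Group G] [MulAction G α] : Prop where
  finG : Finite G
  faith : FaithfulSMul G α
  trans : MulAction.IsPretransitive G (Fin 4 ↪ α)
  odd : ∀ y : Fin 4 ↪ α, Odd (Nat.card (MulAction.stabilizer G y))

theorem sq_comm {u v : G} (hu : u * u = 1) (hv : v * v = 1) : u * (u * v) * u = (u * v)⁻¹ := by
  rw [mul_inv_rev, inv_eq_of_mul_eq_one_right hu, inv_eq_of_mul_eq_one_right hv, ← mul_assoc, hu, one_mul]

theorem conj_sq {g u : G} (hu : u * u = 1) : g * u * g⁻¹ * (g * u * g⁻¹) = 1 := by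
  calc g * u * g⁻¹ * (g * u * g⁻¹) = g * (u * u) * g⁻¹ := by group
    _ = 1 := by rw [hu, mul_one, mul_inv_cancel]

namespace Setup

variable (S : Setup G α)
include S

/-- Two involutions with the same pattern are conjugate in the stabiliser, by a power of their product. -/
theorem conj_one {u v : G} (hu : u * u = 1) (hv : v * v = 1) {π : Fin 4 → Fin 4} {y : Fin 4 ↪ α}
    (hup : Pat u π y) (hvp : Pat v π y) :
    ∃ h ∈ MulAction.stabilizer G y, h * u * h⁻¹ = v ∧ ∀ k, Commute k u → Commute k v → Commute k h := by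
  have := S.finG
  have hππ : ∀ i, y (π (π i)) = y i := fun i => by rw [← hup, ← hup, smul_smul, hu, one_smul]
  have hw : u * v ∈ MulAction.stabilizer G y := mem_stab_iff.2 fun i => by
    rw [mul_smul, hvp, hup, hππ]
  obtain ⟨j, hj⟩ := (S.odd y).of_dvd_nat (Subgroup.orderOf_dvd_natCard _ hw)
  refine ⟨(u * v) ^ j, pow_mem hw j, ?_, fun k h1 h2 => (h1.mul_right h2).pow_right j⟩
  have hcu : u * ((u * v) ^ j)⁻¹ * u = (u * v) ^ j := by
    have h0 := sq_comm hu hv
    have hui : u⁻¹ = u := inv_eq_of_mul_eq_one_right hu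
    calc u * ((u * v) ^ j)⁻¹ * u = u * ((u * v)⁻¹) ^ j * u⁻¹ := by rw [inv_pow, hui]
      _ = (u * (u * v)⁻¹ * u⁻¹) ^ j := (conj_pow).symm
      _ = (u * v) ^ j := by rw [hui, ← h0]; congr 1; simp [mul_assoc, hu]; simp [← mul_assoc, hu]
  have h1 : (u * v) * (u * v) ^ (2 * j) = 1 := by rw [← pow_succ', ← hj, pow_orderOf_eq_one]
  have h3 : ((u * v) ^ j)⁻¹ = u * (u * v) ^ j * u := by
    conv_rhs => rw [← hcu]
    simp [mul_assoc, hu]
    simp [← mul_assoc, hu]
  rw [h3]
  calc (u * v) ^ j * u * (u * (u * v) ^ j * u) = (u * v) ^ (2 * j) * u := by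
        simp [two_mul, pow_add, mul_assoc]; simp [← mul_assoc, hu]
    _ = (u * v)⁻¹ * u := by rw [eq_inv_of_mul_eq_one_right h1]
    _ = v := by rw [mul_inv_rev, inv_eq_of_mul_eq_one_right hu, inv_eq_of_mul_eq_one_right hv, mul_assoc, hu, mul_one]

/-- The same for commuting pairs. -/
theorem conj_two {u u' v v' : G} (hu : u * u = 1) (hu' : u' * u' = 1) (hv : v * v = 1) (hv' : v' * v' = 1)
    (hc : Commute u u') (hc' : Commute v v') {π ρ : Fin 4 → Fin 4} {y : Fin 4 ↪ α}
    (hup : Pat u π y) (hup' : Pat u' ρ y) (hvp : Pat v π y) (hvp' : Pat v' ρ y) :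
    ∃ h ∈ MulAction.stabilizer G y, h * u * h⁻¹ = v ∧ h * u' * h⁻¹ = v' := by
  obtain ⟨h, hh, e, -⟩ := S.conj_one hu hv hup hvp
  have hw : h * u' * h⁻¹ * (h * u' * h⁻¹) = 1 := conj_sq hu'
  have hcw : Commute v (h * u' * h⁻¹) := by
    rw [← e]; exact (SemiconjBy.conj_iff (a := u) (x := u') (y := u') (b := h)).2 hc
  obtain ⟨k, hk, e', hcom⟩ := S.conj_one hw hv' (pat_conj_stab hup' hh) hvp'
  refine ⟨k * h, mul_mem hk hh, ?_, ?_⟩
  · calc k * h * u * (k * h)⁻¹ = k * (h * u * h⁻¹) * k⁻¹ := by group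
      _ = v := by rw [e, (hcom v hcw hc').symm.eq, mul_inv_cancel_right]
  · rw [← e']; group

/-- A tuple with the same pattern is reached by an element matching the involutions. -/
theorem transport {u u' v v' : G} (hu : u * u = 1) (hu' : u' * u' = 1) (hv : v * v = 1) (hv' : v' * v' = 1)
    (hc : Commute u u') (hc' : Commute v v') {π ρ : Fin 4 → Fin 4} {y z : Fin 4 ↪ α}
    (hup : Pat u π y) (hup' : Pat u' ρ y) (hvp : Pat v π z) (hvp' : Pat v' ρ z) :
    ∃ g : G, g • y = z ∧ g * u * g⁻¹ = v ∧ g * u' * g⁻¹ = v' := by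
  obtain ⟨g, hg⟩ := S.trans.exists_smul_eq y z
  obtain ⟨h, hh, e, e'⟩ := S.conj_two (u := g * u * g⁻¹) (u' := g * u' * g⁻¹)
    (conj_sq hu) (conj_sq hu') hv hv'
    ((SemiconjBy.conj_iff (a := u) (x := u') (y := u') (b := g)).2 hc) hc'
    (pat_conj hup hg) (pat_conj hup' hg) hvp hvp'
  refine ⟨h * g, by rw [mul_smul, hg]; exact hh, ?_, ?_⟩
  · rw [← e]; group
  · rw [← e']; group

theorem transport_one {u v : G} (hu : u * u = 1) (hv : v * v = 1) {π : Fin 4 → Fin 4} {y z : Fin 4 ↪ α}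
    (hup : Pat u π y) (hvp : Pat v π z) : ∃ g : G, g • y = z ∧ g * u * g⁻¹ = v := by
  obtain ⟨g, h1, h2, -⟩ := S.transport hu hu hv hv (Commute.refl u) (Commute.refl v) hup hup hvp hvp
  exact ⟨g, h1, h2⟩

/-- An involution fixes at most three points. -/
theorem fix_le {u : G} (hu : u * u = 1) (hu1 : u ≠ 1) (p : Fin 4 → α) (hp : Function.Injective p)
    (hfix : ∀ i, u • p i = p i) : False := by
  have := S.finG
  have hmem : u ∈ MulAction.stabilizer G (⟨p, hp⟩ : Fin 4 ↪ α) := mem_stab_iff.2 hfix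
  have hord : orderOf u = 2 := orderOf_eq_prime (by rw [pow_two, hu]) hu1
  have := (S.odd _).of_dvd_nat (Subgroup.orderOf_dvd_natCard _ hmem)
  rw [hord] at this
  exact absurd this (by decide)

/-- An involution with a prescribed pattern inside a subgroup which contains some element with that pattern. -/
theorem exists_invol (K : Subgroup G) {g : G} (hgK : g ∈ K) {π : Fin 4 → Fin 4} {y : Fin 4 ↪ α}
    (hπ : ∀ i, π (π i) = i) (hg : Pat g π y) : ∃ m : ℕ, Odd m ∧ g ^ m * g ^ m = 1 ∧ Pat (g ^ m) π y ∧ g ^ m ∈ K := by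
  have := S.finG
  have hsq : g * g ∈ MulAction.stabilizer G y := mem_stab_iff.2 fun i => by rw [mul_smul, hg, hg, hπ]
  refine ⟨orderOf (g * g), (S.odd y).of_dvd_nat (Subgroup.orderOf_dvd_natCard _ hsq), ?_, ?_, pow_mem hgK _⟩
  · rw [← (Commute.refl g).mul_pow, pow_orderOf_eq_one]
  · obtain ⟨j, hj⟩ := (S.odd y).of_dvd_nat (Subgroup.orderOf_dvd_natCard _ hsq)
    intro i
    rw [hj, pow_succ, mul_smul, hg, pow_mul, pow_two]
    exact mem_stab_iff.1 (pow_mem hsq j) _

end Setup

/-- Number of elements fixing the tuple and commuting with both. -/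
noncomputable def hcard (u v : G) (y : Fin 4 ↪ α) : ℕ :=
  Nat.card {g : G // g • y = y ∧ g * u = u * g ∧ g * v = v * g}

/-- Number of elements commuting with both. -/
noncomputable def ccard (u v : G) : ℕ := Nat.card {g : G // g * u = u * g ∧ g * v = v * g}

theorem conj_commute_iff {g x u : G} : g * x * g⁻¹ * (g * u * g⁻¹) = g * u * g⁻¹ * (g * x * g⁻¹) ↔ x * u = u * x := by
  have e : ∀ a b : G, g * a * g⁻¹ * (g * b * g⁻¹) = g * (a * b) * g⁻¹ := fun a b => by group
  rw [e, e, mul_left_inj, mul_right_inj]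

theorem hcard_conj (g u v : G) (y : Fin 4 ↪ α) :
    hcard (g * u * g⁻¹) (g * v * g⁻¹) (g • y) = hcard u v y := by
  refine (Nat.card_congr (Equiv.subtypeEquiv (MulAut.conj g).toEquiv fun x => ?_)).symm
  simp only [MulEquiv.toEquiv_eq_coe, EquivLike.coe_coe, MulAut.conj_apply, conj_commute_iff,
    mul_smul, inv_smul_smul, smul_left_cancel_iff]

theorem ccard_conj (g u v : G) : ccard (g * u * g⁻¹) (g * v * g⁻¹) = ccard u v := by
  refine (Nat.card_congr (Equiv.subtypeEquiv (MulAut.conj g).toEquiv fun x => ?_)).symm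
  simp only [MulEquiv.toEquiv_eq_coe, EquivLike.coe_coe, MulAut.conj_apply, conj_commute_iff]

namespace Setup

variable (S : Setup G α)
include S

/-- The centraliser of a commuting pair is transitive on the tuples with its pattern. -/
theorem count {u v : G} (hu : u * u = 1) (hv : v * v = 1) (hc : Commute u v) {π ρ : Fin 4 → Fin 4}
    {y : Fin 4 ↪ α} (hup : Pat u π y) (hvp : Pat v ρ y) :
    ccard u v = Nat.card {z : Fin 4 ↪ α // Pat u π z ∧ Pat v ρ z} * hcard u v y := by
  let C : Subgroup G := Subgroup.centralizer {u, v}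
  have hC : ∀ g : G, g ∈ C ↔ g * u = u * g ∧ g * v = v * g := fun g => by
    constructor
    · exact fun h => ⟨(Subgroup.mem_centralizer_iff.1 h u (Or.inl rfl)).symm,
        (Subgroup.mem_centralizer_iff.1 h v (Or.inr rfl)).symm⟩
    · rintro ⟨h1, h2⟩
      refine Subgroup.mem_centralizer_iff.2 ?_
      rintro w (rfl | rfl)
      exacts [h1.symm, h2.symm]
  have horb : MulAction.orbit C y = {z | Pat u π z ∧ Pat v ρ z} := by
    ext z
    constructor
    · rintro ⟨⟨g, hg⟩, e⟩
      obtain ⟨h1, h2⟩ := (hC g).1 hg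
      have a := pat_conj hup (show g • y = z from e)
      have b := pat_conj hvp (show g • y = z from e)
      rw [h1, mul_inv_cancel_right] at a
      rw [h2, mul_inv_cancel_right] at b
      exact ⟨a, b⟩
    · rintro ⟨h1, h2⟩
      obtain ⟨g, hg, e1, e2⟩ := S.transport hu hv hu hv hc hc hup hvp h1 h2
      exact ⟨⟨g, (hC g).2 ⟨by nth_rewrite 2 [← e1]; group, by nth_rewrite 2 [← e2]; group⟩⟩, hg⟩
  have h1 := Subgroup.card_eq_card_quotient_mul_card_subgroup (MulAction.stabilizer C y)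
  rw [← Nat.card_congr (MulAction.orbitEquivQuotientStabilizer C y)] at h1
  refine (Nat.card_congr (Equiv.subtypeEquivRight hC)).symm.trans (h1.trans ?_)
  refine congrArg₂ (· * ·) (Nat.card_congr (Equiv.setCongr horb)) ?_
  exact Nat.card_congr
    { toFun := fun g => ⟨((g : C) : G), g.2, (hC _).1 (g : C).2⟩
      invFun := fun g => ⟨⟨g.1, (hC _).2 g.2.2⟩, g.2.1⟩
      left_inv := fun g => rfl
      right_inv := fun g => rfl }

end Setup

end CfsgLib.JordanFour
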