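import Cfsg.Agent.JordanFour.Fixed

/-!
Counting tuples with a given pattern.
-/

set_option autoImplicit false

namespace CfsgLib.JordanFour

variable {G α : Type*} [Group G] [MulAction G α] [Fintype α] [DecidableEq α]

/-- The fixed points. -/
def fixF (u : G) : Finset α := Finset.univ.filter fun p => u • p = p

theorem mem_fixF {u : G} {p : α} : p ∈ (fixF u : Finset α) ↔ u • p = p := by simp [fixF]

/-- A tuple from four points. -/
def mk4 (p q r s : α) (h1 : p ≠ q) (h2 : p ≠ r) (h3 : p ≠ s) (h4 : q ≠ r) (h5 : q ≠ s) (h6 : r ≠ s) : Fin 4 ↪ α :=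
  ⟨![p, q, r, s], by
    intro i j h
    fin_cases i <;> fin_cases j <;> simp_all [eq_comm]⟩

theorem pat_vec {u : G} {π : Fin 4 → Fin 4} {y : Fin 4 ↪ α} (h0 : u • y 0 = y (π 0)) (h1 : u • y 1 = y (π 1))
    (h2 : u • y 2 = y (π 2)) (h3 : u • y 3 = y (π 3)) : Pat u π y := by
  intro i; fin_cases i <;> assumption

theorem involution_smul {u : G} (hu : u * u = 1) (p : α) : u • u • p = p := by
  rw [← mul_smul, hu, one_smul]

theorem two_dvd_moved {u : G} (hu : u * u = 1) : 2 ∣ Fintype.card α - (fixF u : Finset α).card := by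
  have h := Equiv.Perm.two_dvd_card_support (σ := (MulAction.toPerm u : Equiv.Perm α))
    (Equiv.ext fun p => by rw [pow_two, Equiv.Perm.mul_apply]; exact involution_smul hu p)
  have e : ((MulAction.toPerm u : Equiv.Perm α)).support = (fixF u : Finset α)ᶜ := by
    ext p; simp [mem_fixF]
  rwa [e, Finset.card_compl] at h

theorem fixF_conj (g u : G) : (fixF (g * u * g⁻¹) : Finset α) = (fixF u).image (g • ·) := by
  ext p
  simp only [Finset.mem_image, mem_fixF]
  constructor
  · intro h
    refine ⟨g⁻¹ • p, ?_, smul_inv_smul g p⟩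
    rw [mul_smul, mul_smul] at h
    exact (inv_smul_eq_iff.2 h.symm).symm
  · rintro ⟨q, hq, rfl⟩
    rw [mul_smul, mul_smul, inv_smul_smul, hq]

theorem card_fixF_conj (g u : G) : (fixF (g * u * g⁻¹) : Finset α).card = (fixF u : Finset α).card := by
  rw [fixF_conj, Finset.card_image_of_injective _ (MulAction.injective g)]

theorem Setup.fixF_card_le (S : Setup G α) {u : G} (hu : u * u = 1) (hu1 : u ≠ 1) :
    (fixF u : Finset α).card ≤ 3 := by
  by_contra h
  obtain ⟨T, hT, hc⟩ := Finset.exists_subset_card_eq (s := (fixF u : Finset α)) (n := 4) (by omega)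
  let e := (T.equivFinOfCardEq hc).symm
  exact S.fix_le hu hu1 (fun i => (e i : α)) (Subtype.val_injective.comp e.injective)
    fun i => mem_fixF.1 (hT (e i).2)

/-- Tuples of the first pattern. -/
theorem card_pat_a {u : G} (hu : u * u = 1) :
    Nat.card {z : Fin 4 ↪ α // Pat u πa z ∧ Pat u πa z}
      = ((fixF u : Finset α).card * (fixF u : Finset α).card - (fixF u : Finset α).card)
          * (Fintype.card α - (fixF u : Finset α).card) := by
  rw [← Finset.offDiag_card, ← Finset.card_compl, ← Finset.card_product, ← Nat.card_eq_finsetCard]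
  refine Nat.card_congr
    { toFun := fun z => ⟨((z.1 2, z.1 3), z.1 0), ?_⟩
      invFun := fun t => ⟨mk4 t.1.2 (u • t.1.2) t.1.1.1 t.1.1.2 ?_ ?_ ?_ ?_ ?_ ?_, ?_, ?_⟩
      left_inv := ?_
      right_inv := ?_ }
  · obtain ⟨z, hz, -⟩ := z
    simp only [Finset.mem_product, Finset.mem_offDiag, Finset.mem_compl, mem_fixF, hz 2, hz 3, hz 0]
    exact ⟨⟨rfl, rfl, z.injective.ne (by decide)⟩, z.injective.ne (by decide)⟩
  all_goals try (obtain ⟨⟨⟨i, j⟩, p⟩, ht⟩ := t
                 simp only [Finset.mem_product, Finset.mem_offDiag, Finset.mem_compl, mem_fixF] at ht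
                 obtain ⟨⟨hi, hj, hij⟩, hp⟩ := ht)
  · exact Ne.symm hp
  · intro h; simp only at h; subst h; exact hp hi
  · intro h; simp only at h; subst h; exact hp hj
  · intro h; have h' := congrArg (u • ·) h; simp only [involution_smul hu, hi] at h'; exact hp (h' ▸ hi)
  · intro h; have h' := congrArg (u • ·) h; simp only [involution_smul hu, hj] at h'; exact hp (h' ▸ hj)
  · exact hij
  · exact pat_vec rfl (involution_smul hu p) hi hj
  · exact pat_vec rfl (involution_smul hu p) hi hj
  · rintro ⟨z, hz, -⟩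
    refine Subtype.ext (DFunLike.ext _ _ fun i => ?_)
    fin_cases i
    · rfl
    · exact hz 0
    · rfl
    · rfl
  · intro t; rfl

/-- Tuples of the pattern moving all four points. -/
theorem card_pat_d {u : G} (hu : u * u = 1) :
    Nat.card {z : Fin 4 ↪ α // Pat u πd z ∧ Pat u πd z}
      = (Fintype.card α - (fixF u : Finset α).card) * (Fintype.card α - (fixF u : Finset α).card - 2) := by
  let P : Finset (Σ _ : α, α) := (fixF u : Finset α)ᶜ.sigma fun p => (fixF u : Finset α)ᶜ \ {p, u • p}
  have hP : P.card = (Fintype.card α - (fixF u : Finset α).card) * (Fintype.card α - (fixF u : Finset α).card - 2) := by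
    rw [Finset.card_sigma, Finset.sum_const_nat (m := Fintype.card α - (fixF u : Finset α).card - 2), Finset.card_compl]
    intro p hp
    rw [Finset.mem_compl, mem_fixF] at hp
    rw [Finset.card_sdiff_of_subset, Finset.card_compl, Finset.card_pair (Ne.symm hp)]
    intro q hq
    rw [Finset.mem_insert, Finset.mem_singleton] at hq
    rw [Finset.mem_compl, mem_fixF]
    rcases hq with rfl | rfl
    · exact hp
    · rw [involution_smul hu]; exact Ne.symm hp
  rw [← hP, ← Nat.card_eq_finsetCard]
  refine Nat.card_congr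
    { toFun := fun z => ⟨⟨z.1 0, z.1 2⟩, ?_⟩
      invFun := fun t => ⟨mk4 t.1.1 (u • t.1.1) t.1.2 (u • t.1.2) ?_ ?_ ?_ ?_ ?_ ?_, ?_, ?_⟩
      left_inv := ?_
      right_inv := ?_ }
  · obtain ⟨z, hz, -⟩ := z
    simp only [P, Finset.mem_sigma, Finset.mem_sdiff, Finset.mem_compl, mem_fixF, Finset.mem_insert,
      Finset.mem_singleton, hz 0, hz 2, not_or]
    exact ⟨z.injective.ne (by decide), z.injective.ne (by decide), z.injective.ne (by decide), z.injective.ne (by decide)⟩
  all_goals try (obtain ⟨⟨p, q⟩, ht⟩ := t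
                 simp only [P, Finset.mem_sigma, Finset.mem_sdiff, Finset.mem_compl, mem_fixF, Finset.mem_insert,
                   Finset.mem_singleton, not_or] at ht
                 obtain ⟨hp, hq, hqp, hqup⟩ := ht)
  · exact Ne.symm hp
  · exact Ne.symm hqp
  · intro h; exact hqup (by simp only at h; rw [h, involution_smul hu])
  · exact Ne.symm hqup
  · intro h; exact hqp (MulAction.injective u h).symm
  · exact Ne.symm hq
  · exact pat_vec rfl (involution_smul hu p) rfl (involution_smul hu q)
  · exact pat_vec rfl (involution_smul hu p) rfl (involution_smul hu q)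
  · rintro ⟨z, hz, -⟩
    refine Subtype.ext (DFunLike.ext _ _ fun i => ?_)
    fin_cases i
    · rfl
    · exact hz 0
    · rfl
    · exact hz 2
  · intro t; rfl

/-- Tuples of the two commuting regular patterns. -/
theorem card_pat_regular {u v : G} (hu : u * u = 1) (hv : v * v = 1) (huv : v * u = u * v) :
    Nat.card {z : Fin 4 ↪ α // Pat u πd z ∧ Pat v πc z}
      = (Finset.univ.filter fun p : α => u • p ≠ p ∧ v • p ≠ p ∧ (v * u) • p ≠ p).card := by
  have hw : v * u * (v * u) = 1 := by
    calc v * u * (v * u) = v * u * (u * v) := by rw [huv]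
      _ = v * (u * u) * v := by group
      _ = 1 := by rw [hu, mul_one, hv]
  have hcomm : ∀ p : α, v • u • p = u • v • p := fun p => by rw [← mul_smul, ← mul_smul, huv]
  rw [← Nat.card_eq_finsetCard]
  refine Nat.card_congr
    { toFun := fun z => ⟨z.1 0, ?_⟩
      invFun := fun t => ⟨mk4 t.1 (u • t.1) (v • t.1) ((v * u) • t.1) ?_ ?_ ?_ ?_ ?_ ?_, ?_, ?_⟩
      left_inv := ?_
      right_inv := ?_ }
  · obtain ⟨z, hz, hz'⟩ := z
    rw [Finset.mem_filter, mul_smul, hz 0, hz' 0, hz']
    exact ⟨Finset.mem_univ _, z.injective.ne (by decide), z.injective.ne (by decide), z.injective.ne (by decide)⟩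
  all_goals try (obtain ⟨p, ht⟩ := t
                 rw [Finset.mem_filter] at ht
                 obtain ⟨-, hp, hq, hr⟩ := ht
                 simp only [mul_smul] at hr ⊢)
  · exact Ne.symm hp
  · exact Ne.symm hq
  · exact Ne.symm hr
  · intro h; exact hr (by rw [h, involution_smul hv])
  · intro h
    refine hq ?_
    apply MulAction.injective u
    show u • v • p = u • p
    rw [← hcomm]; exact h.symm
  · intro h; exact hp (MulAction.injective v h).symm
  · exact pat_vec rfl (involution_smul hu p) (hcomm p).symm (show u • v • u • p = v • p by rw [hcomm, involution_smul hu])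
  · exact pat_vec rfl rfl (involution_smul hv p) (show v • v • u • p = u • p from involution_smul hv _)
  · rintro ⟨z, hz, hz'⟩
    refine Subtype.ext (DFunLike.ext _ _ fun i => ?_)
    fin_cases i
    · rfl
    · exact hz 0
    · exact hz' 0
    · show (v * u) • z 0 = z 3
      rw [mul_smul, hz 0, hz']; rfl
  · intro t; rfl

/-- Tuples of two commuting transposition patterns. -/
theorem card_pat_pair {u v : G} (hu : u * u = 1) (hv : v * v = 1) (huv : u * v = v * u) :
    Nat.card {z : Fin 4 ↪ α // Pat u πa z ∧ Pat v πb z}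
      = ((fixF u : Finset α).filter fun p => v • p ≠ p).card * ((fixF v : Finset α).filter fun p => u • p ≠ p).card := by
  have hcomm : ∀ p : α, v • u • p = u • v • p := fun p => by rw [← mul_smul, ← mul_smul, huv]
  rw [← Finset.card_product, ← Nat.card_eq_finsetCard]
  refine Nat.card_congr
    { toFun := fun z => ⟨(z.1 2, z.1 0), ?_⟩
      invFun := fun t => ⟨mk4 t.1.2 (u • t.1.2) t.1.1 (v • t.1.1) ?_ ?_ ?_ ?_ ?_ ?_, ?_, ?_⟩
      left_inv := ?_
      right_inv := ?_ }
  · obtain ⟨z, hz, hz'⟩ := z
    simp only [Finset.mem_product, Finset.mem_filter, mem_fixF, hz 0, hz 2, hz' 0, hz' 2]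
    exact ⟨⟨rfl, z.injective.ne (by decide)⟩, rfl, z.injective.ne (by decide)⟩
  all_goals try (obtain ⟨⟨q, p⟩, ht⟩ := t
                 simp only [Finset.mem_product, Finset.mem_filter, mem_fixF] at ht
                 obtain ⟨⟨hq, hvq⟩, hp, hup⟩ := ht)
  · exact Ne.symm hup
  · intro h; simp only at h; subst h; exact hup hq
  · intro h
    simp only at h
    have : u • p = p := by rw [h, ← hcomm, hq]
    exact hup this
  · intro h
    have h' := congrArg (u • ·) h
    simp only [involution_smul hu, hq] at h'
    exact hup (h' ▸ hq)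
  · intro h
    simp only at h
    have h' := congrArg (v • ·) h
    simp only [hcomm, hp, involution_smul hv] at h'
    exact hvq (by rw [← h', hcomm, hp])
  · exact Ne.symm hvq
  · exact pat_vec rfl (involution_smul hu p) hq (show u • v • q = v • q by rw [← hcomm, hq])
  · exact pat_vec hp (show v • u • p = u • p by rw [hcomm, hp]) rfl (involution_smul hv q)
  · rintro ⟨z, hz, hz'⟩
    refine Subtype.ext (DFunLike.ext _ _ fun i => ?_)
    fin_cases i
    · rfl
    · exact hz 0
    · rfl
    · exact hz' 2
  · intro t; rfl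

end CfsgLib.JordanFour
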