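import Mathlib

/-!
A four-group acting on a group of odd order: fixed-point orders and generation.
-/

set_option autoImplicit false

namespace CfsgLib.JordanFour

variable {H : Type*} [Group H] [Finite H]

section Sqrt

theorem coprime_two (hodd : Odd (Nat.card H)) : (Nat.card H).Coprime 2 :=
  Nat.coprime_two_right.2 hodd

theorem sq_inj (hodd : Odd (Nat.card H)) {a b : H} (h : a * a = b * b) : a = b := by
  apply (coprime_two hodd).pow_left_bijective.injective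
  simpa [pow_two] using h

theorem exists_sqrt (hodd : Odd (Nat.card H)) (a : H) : ∃ r, r * r = a := by
  obtain ⟨r, hr⟩ := (coprime_two hodd).pow_left_bijective.surjective a
  exact ⟨r, by simpa [pow_two] using hr⟩

/-- The equation `Y * w * Y = x` has at most one solution. -/
theorem sandwich_inj (hodd : Odd (Nat.card H)) {Y Y' w : H} (h : Y * w * Y = Y' * w * Y') : Y = Y' := by
  have : Y * w = Y' * w := sq_inj hodd (by
    calc Y * w * (Y * w) = Y * w * Y * w := by group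
      _ = Y' * w * Y' * w := by rw [h]
      _ = Y' * w * (Y' * w) := by group)
  exact mul_right_cancel this

end Sqrt

/-- Fixed elements. -/
abbrev fixC (σ : MulAut H) := {h : H // σ h = h}

/-- Inverted elements. -/
abbrev invC (σ : MulAut H) := {h : H // σ h = h⁻¹}

theorem sqrt_inverted (hodd : Odd (Nat.card H)) (σ : MulAut H) {i r : H} (hi : σ i = i⁻¹) (hr : r * r = i) :
    σ r = r⁻¹ := sq_inj hodd (by rw [← map_mul, hr, hi, ← hr, mul_inv_rev])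

theorem sqrt_fixed (hodd : Odd (Nat.card H)) (σ : MulAut H) {i r : H} (hi : σ i = i) (hr : r * r = i) :
    σ r = r := sq_inj hodd (by rw [← map_mul, hr, hi])

theorem exists_split (hodd : Odd (Nat.card H)) (σ : MulAut H) (hσ : ∀ h, σ (σ h) = h) (h : H) :
    ∃ c i : H, σ c = c ∧ σ i = i⁻¹ ∧ h = c * i := by
  have hi : σ (h⁻¹ * σ h) = (h⁻¹ * σ h)⁻¹ := by simp [hσ]
  obtain ⟨r, hr⟩ := exists_sqrt hodd (h⁻¹ * σ h)
  have hr' := sqrt_inverted hodd σ hi hr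
  refine ⟨h * r, r⁻¹, ?_, by simp [hr'], by group⟩
  rw [map_mul, hr', show σ h = h * (r * r) by rw [hr]; group]
  group

theorem card_split (hodd : Odd (Nat.card H)) (σ : MulAut H) (hσ : ∀ h, σ (σ h) = h) :
    Nat.card H = Nat.card (fixC σ) * Nat.card (invC σ) := by
  rw [← Nat.card_prod]
  refine (Nat.card_eq_of_bijective (fun p : fixC σ × invC σ => (p.1 : H) * p.2) ⟨?_, ?_⟩).symm
  · rintro ⟨⟨c, hc⟩, ⟨i, hi⟩⟩ ⟨⟨c', hc'⟩, ⟨i', hi'⟩⟩ h
    have h : c * i = c' * i' := h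
    have h2 := congrArg σ h
    rw [map_mul, map_mul, hc, hc', hi, hi'] at h2
    have e : i = i' := sq_inj hodd (by
      calc i * i = (c * i⁻¹)⁻¹ * (c * i) := by group
        _ = (c' * i'⁻¹)⁻¹ * (c' * i') := by rw [h, h2]
        _ = i' * i' := by group)
    subst e
    obtain rfl := mul_right_cancel h
    rfl
  · intro h
    obtain ⟨c, i, hc, hi, e⟩ := exists_split hodd σ hσ h
    exact ⟨(⟨c, hc⟩, ⟨i, hi⟩), e.symm⟩

/-- Inverted elements of the first involution, split by the second. -/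
theorem split_inverted (hodd : Odd (Nat.card H)) (σ τ : MulAut H) (hσ : ∀ h, σ (σ h) = h)
    (hτ : ∀ h, τ (τ h) = h) (hcomm : ∀ h, σ (τ h) = τ (σ h)) (x : H) (hx : σ x = x⁻¹) :
    ∃ y z : H, (σ y = y⁻¹ ∧ τ y = y) ∧ (σ z = z⁻¹ ∧ τ z = z⁻¹) ∧ x = y * z * y := by
  obtain ⟨w, hw⟩ : ∃ w, w = (τ x)⁻¹ := ⟨_, rfl⟩
  have hσw : σ w = w⁻¹ := by rw [hw, map_inv, hcomm, hx, map_inv]
  have hτw : τ w = x⁻¹ := by rw [hw, map_inv, hτ]
  obtain ⟨s, hs⟩ := exists_sqrt hodd (x * w)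
  obtain ⟨Y, hY⟩ : ∃ Y, Y = s * w⁻¹ := ⟨_, rfl⟩
  have hYe : Y * w * Y = x := by
    rw [hY]
    calc s * w⁻¹ * w * (s * w⁻¹) = s * s * w⁻¹ := by group
      _ = x := by rw [hs]; group
  have hσY : σ Y = Y⁻¹ := by
    have h1 : σ Y * w⁻¹ * σ Y = x⁻¹ := by
      rw [← hσw, ← map_mul, ← map_mul, hYe, hx]
    have h2 : (σ Y)⁻¹ * w * (σ Y)⁻¹ = x := by
      rw [← inv_inj, ← h1]; group
    exact inv_eq_iff_eq_inv.1 (sandwich_inj hodd (h2.trans hYe.symm))
  have hτY : τ Y = Y := by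
    have h1 : τ Y * x⁻¹ * τ Y = w⁻¹ := by
      rw [← hτw, ← map_mul, ← map_mul, hYe, hw, inv_inv]
    have h2 : τ Y * w * τ Y = x := by
      calc τ Y * w * τ Y = τ Y * (τ Y * x⁻¹ * τ Y)⁻¹ * τ Y := by rw [h1, inv_inv]
        _ = x := by group
    exact sandwich_inj hodd (h2.trans hYe.symm)
  obtain ⟨y, hy⟩ := exists_sqrt hodd Y
  have hσy := sqrt_inverted hodd σ hσY hy
  have hτy := sqrt_fixed hodd τ hτY hy
  refine ⟨y, y⁻¹ * x * y⁻¹, ⟨hσy, hτy⟩, ⟨?_, ?_⟩, by group⟩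
  · rw [map_mul, map_mul, map_inv, hσy, hx]; group
  · rw [map_mul, map_mul, map_inv, hτy, show τ x = w⁻¹ by rw [hw, inv_inv]]
    have : w = Y⁻¹ * x * Y⁻¹ := by rw [← hYe]; group
    rw [this, ← hy]; group

theorem card_inverted (hodd : Odd (Nat.card H)) (σ τ : MulAut H) (hσ : ∀ h, σ (σ h) = h)
    (hτ : ∀ h, τ (τ h) = h) (hcomm : ∀ h, σ (τ h) = τ (σ h)) :
    Nat.card (invC σ) = Nat.card {h : H // σ h = h⁻¹ ∧ τ h = h} * Nat.card {h : H // σ h = h⁻¹ ∧ τ h = h⁻¹} := by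
  rw [← Nat.card_prod]
  refine (Nat.card_eq_of_bijective
    (fun p : {h : H // σ h = h⁻¹ ∧ τ h = h} × {h : H // σ h = h⁻¹ ∧ τ h = h⁻¹} =>
      (⟨(p.1 : H) * p.2 * p.1, by rw [map_mul, map_mul, p.1.2.1, p.2.2.1]; group⟩ : invC σ)) ⟨?_, ?_⟩).symm
  · rintro ⟨⟨y, hy⟩, ⟨z, hz⟩⟩ ⟨⟨y', hy'⟩, ⟨z', hz'⟩⟩ h
    have h : y * z * y = y' * z' * y' := congrArg Subtype.val h
    have hτe := congrArg τ h
    simp only [map_mul, hy.2, hy'.2, hz.2, hz'.2] at hτe
    -- both `y * y` and `y' * y'` solve the same equation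
    obtain ⟨w, hw⟩ : ∃ w, w = (y * z⁻¹ * y)⁻¹ := ⟨_, rfl⟩
    have h1 : y * y * w * (y * y) = y * z * y := by rw [hw]; group
    have h2 : y' * y' * w * (y' * y') = y' * z' * y' := by rw [hw, hτe]; group
    have e := sq_inj hodd (sandwich_inj hodd (h1.trans (h.trans h2.symm)))
    subst e
    obtain rfl : z = z' := mul_left_cancel (mul_right_cancel h)
    rfl
  · rintro ⟨x, hx⟩
    obtain ⟨y, z, hy, hz, e⟩ := split_inverted hodd σ τ hσ hτ hcomm x hx
    exact ⟨(⟨y, hy⟩, ⟨z, hz⟩), Subtype.ext e.symm⟩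

theorem card_fixC_split (hodd : Odd (Nat.card H)) (σ τ : MulAut H)
    (hτ : ∀ h, τ (τ h) = h) (hcomm : ∀ h, σ (τ h) = τ (σ h)) :
    Nat.card (fixC σ) = Nat.card {h : H // σ h = h ∧ τ h = h} * Nat.card {h : H // σ h = h ∧ τ h = h⁻¹} := by
  rw [← Nat.card_prod]
  refine (Nat.card_eq_of_bijective
    (fun p : {h : H // σ h = h ∧ τ h = h} × {h : H // σ h = h ∧ τ h = h⁻¹} =>
      (⟨(p.1 : H) * p.2, by rw [map_mul, p.1.2.1, p.2.2.1]⟩ : fixC σ)) ⟨?_, ?_⟩).symm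
  · rintro ⟨⟨c, hc⟩, ⟨i, hi⟩⟩ ⟨⟨c', hc'⟩, ⟨i', hi'⟩⟩ h
    have h : c * i = c' * i' := congrArg Subtype.val h
    have h2 := congrArg τ h
    rw [map_mul, map_mul, hc.2, hc'.2, hi.2, hi'.2] at h2
    have e : i = i' := sq_inj hodd (by
      calc i * i = (c * i⁻¹)⁻¹ * (c * i) := by group
        _ = (c' * i'⁻¹)⁻¹ * (c' * i') := by rw [h, h2]
        _ = i' * i' := by group)
    subst e
    obtain rfl := mul_right_cancel h
    rfl
  · rintro ⟨h, hh⟩
    obtain ⟨r, hr⟩ := exists_sqrt hodd (h⁻¹ * τ h)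
    have hr' := sqrt_inverted hodd τ (show τ (h⁻¹ * τ h) = _ by simp [hτ]) hr
    have hσr := sqrt_fixed hodd σ (show σ (h⁻¹ * τ h) = h⁻¹ * τ h by simp [hcomm, hh]) hr
    refine ⟨(⟨h * r, by rw [map_mul, hh, hσr], ?_⟩, ⟨r⁻¹, by simp [hσr], by simp [hr']⟩), Subtype.ext (by simp)⟩
    rw [map_mul, hr', show τ h = h * (r * r) by rw [hr]; group]
    group

/-- The order formula for a four-group acting on a group of odd order. -/
theorem four_formula (hodd : Odd (Nat.card H)) (σ τ : MulAut H) (hσ : ∀ h, σ (σ h) = h)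
    (hτ : ∀ h, τ (τ h) = h) (hcomm : ∀ h, σ (τ h) = τ (σ h)) :
    Nat.card H * Nat.card {h : H // σ h = h ∧ τ h = h} ^ 2
      = Nat.card (fixC σ) * Nat.card (fixC τ) * Nat.card {h : H // σ (τ h) = h} := by
  have hστ : ∀ h, (σ * τ) h = σ (τ h) := fun _ => rfl
  have e0 := card_split hodd σ hσ
  have e1 := card_inverted hodd σ τ hσ hτ hcomm
  have e2 := card_fixC_split hodd τ σ hσ (fun h => (hcomm h).symm)
  have e3 := card_fixC_split hodd (σ * τ) σ hσ (fun h => by simp only [hστ]; rw [← hcomm])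
  have f1 : Nat.card {h : H // τ h = h ∧ σ h = h⁻¹} = Nat.card {h : H // σ h = h⁻¹ ∧ τ h = h} :=
    Nat.card_congr (Equiv.subtypeEquivRight fun h => and_comm)
  have f2 : Nat.card {h : H // τ h = h ∧ σ h = h} = Nat.card {h : H // σ h = h ∧ τ h = h} :=
    Nat.card_congr (Equiv.subtypeEquivRight fun h => and_comm)
  have f3 : Nat.card {h : H // (σ * τ) h = h ∧ σ h = h} = Nat.card {h : H // σ h = h ∧ τ h = h} :=
    Nat.card_congr (Equiv.subtypeEquivRight fun h => by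
      rw [hστ]
      constructor
      · rintro ⟨h1, h2⟩; exact ⟨h2, σ.injective (h1.trans h2.symm)⟩
      · rintro ⟨h1, h2⟩; exact ⟨by rw [h2, h1], h1⟩)
  have f4 : Nat.card {h : H // (σ * τ) h = h ∧ σ h = h⁻¹} = Nat.card {h : H // σ h = h⁻¹ ∧ τ h = h⁻¹} :=
    Nat.card_congr (Equiv.subtypeEquivRight fun h => by
      rw [hστ]
      constructor
      · rintro ⟨h1, h2⟩
        exact ⟨h2, σ.injective (by rw [h1, map_inv, h2, inv_inv])⟩
      · rintro ⟨h1, h2⟩; exact ⟨by rw [h2, map_inv, h1, inv_inv], h1⟩)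
  have e4 : Nat.card {h : H // σ (τ h) = h} = Nat.card (fixC (σ * τ)) := rfl
  rw [e2, e4, e3, f1, f2, f3, f4, e0, e1]
  ring

/-- A group of odd order is generated by the three fixed subgroups. -/
theorem mem_of_fixed (hodd : Odd (Nat.card H)) (σ τ : MulAut H) (hσ : ∀ h, σ (σ h) = h)
    (hτ : ∀ h, τ (τ h) = h) (hcomm : ∀ h, σ (τ h) = τ (σ h)) (K : Subgroup H)
    (h1 : ∀ h, σ h = h → h ∈ K) (h2 : ∀ h, τ h = h → h ∈ K) (h3 : ∀ h, σ (τ h) = h → h ∈ K) (g : H) :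
    g ∈ K := by
  obtain ⟨c, i, hc, hi, rfl⟩ := exists_split hodd σ hσ g
  refine K.mul_mem (h1 c hc) ?_
  obtain ⟨y, z, hy, hz, rfl⟩ := split_inverted hodd σ τ hσ hτ hcomm i hi
  exact K.mul_mem (K.mul_mem (h2 y hy.2) (h3 z (by rw [hz.2, map_inv, hz.1, inv_inv]))) (h2 y hy.2)

end CfsgLib.JordanFour
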