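import Cfsg.Agent.JordanFour.Basic
import Cfsg.Agent.JordanFour.Odd

/-!
Fixed points and centraliser counts of a dihedral group of order eight on a four-point set.
-/

set_option autoImplicit false

namespace CfsgLib.JordanFour

variable {G α : Type*} [Group G] [MulAction G α]

/-- Pattern swapping the first two indices. -/
abbrev πa : Fin 4 → Fin 4 := ![1, 0, 2, 3]
/-- Pattern swapping the last two indices. -/
abbrev πb : Fin 4 → Fin 4 := ![0, 1, 3, 2]
/-- Pattern of the product of the previous two. -/
abbrev πd : Fin 4 → Fin 4 := ![1, 0, 3, 2]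
/-- Pattern exchanging the two pairs. -/
abbrev πc : Fin 4 → Fin 4 := ![2, 3, 0, 1]

/-- Lifts of a Sylow subgroup of the symmetric group of the four points. -/
structure Conf (x : Fin 4 ↪ α) (a b c : G) : Prop where
  ha : a * a = 1
  hb : b * b = 1
  hc : c * c = 1
  hab : a * b = b * a
  hca : c * a * c = b
  pa : Pat a πa x
  pb : Pat b πb x
  pc : Pat c πc x

theorem Setup.exists_conf (S : Setup G α) (x : Fin 4 ↪ α) : ∃ a b c : G, Conf x a b c := by
  have := S.finG
  have mk : ∀ π : Fin 4 → Fin 4, (∀ i, π (π i) = i) → ∃ g : G, Pat g π x := fun π hπ => by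
    obtain ⟨g, hg⟩ := S.trans.exists_smul_eq x ⟨fun i => x (π i), fun i j h => by
      simpa [hπ] using congrArg π (x.injective h)⟩
    exact ⟨g, fun i => smul_eq_iff_all.1 hg i⟩
  have comm3 : ∀ i, πa (πb i) = πb (πa i) := by decide
  -- the first involution
  obtain ⟨g, hg⟩ := mk πa (by decide)
  obtain ⟨m, -, ha, hpa, -⟩ := S.exists_invol (⊤ : Subgroup G) (Subgroup.mem_top g) (by decide) hg
  generalize g ^ m = a at ha hpa
  -- the second, commuting with it
  obtain ⟨g', hg'⟩ := mk πb (by decide)
  have hpa' : Pat (g' * a * g'⁻¹) πa x := fun i => by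
    have h0 : g'⁻¹ • x i = x (πb i) := by
      rw [inv_smul_eq_iff, hg']
      exact congrArg x ((by decide : ∀ i, i = πb (πb i)) i)
    rw [mul_smul, mul_smul, h0, hpa, hg']
    exact congrArg x ((by decide : ∀ i, πb (πa (πb i)) = πa i) i)
  obtain ⟨h, hh, e, -⟩ := S.conj_one (conj_sq ha) ha hpa' hpa
  have hcen : h * g' ∈ Subgroup.centralizer {a} := by
    refine Subgroup.mem_centralizer_singleton_iff.2 ?_
    nth_rewrite 2 [← e]
    group
  have hp2 : Pat (h * g') πb x := fun i => by rw [mul_smul, hg', mem_stab_iff.1 hh]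
  obtain ⟨k, -, hb, hpb, hbc⟩ := S.exists_invol _ hcen (by decide) hp2
  generalize (h * g') ^ k = b at hb hpb hbc
  have hab : a * b = b * a := (Subgroup.mem_centralizer_singleton_iff.1 hbc).symm
  -- the third, exchanging them
  obtain ⟨g'', hg''⟩ := mk πc (by decide)
  have hinv : ∀ i, g''⁻¹ • x i = x (πc i) := fun i => by
    rw [inv_smul_eq_iff, hg'']
    exact congrArg x ((by decide : ∀ i, i = πc (πc i)) i)
  have hq1 : Pat (g'' * a * g''⁻¹) πb x := fun i => by
    rw [mul_smul, mul_smul, hinv, hpa, hg'']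
    exact congrArg x ((by decide : ∀ i, πc (πa (πc i)) = πb i) i)
  have hq2 : Pat (g'' * b * g''⁻¹) πa x := fun i => by
    rw [mul_smul, mul_smul, hinv, hpb, hg'']
    exact congrArg x ((by decide : ∀ i, πc (πb (πc i)) = πa i) i)
  obtain ⟨l, hl, e1, e2⟩ := S.conj_two (conj_sq ha) (conj_sq hb) hb ha
    ((SemiconjBy.conj_iff (a := a) (x := b) (y := b) (b := g'')).2 hab) hab.symm hq1 hq2 hpb hpa
  have hp3 : Pat (l * g'') πc x := fun i => by rw [mul_smul, hg'', mem_stab_iff.1 hl]
  have f1 : l * g'' * a * (l * g'')⁻¹ = b := by rw [← e1]; group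
  have f2 : l * g'' * b * (l * g'')⁻¹ = a := by rw [← e2]; group
  generalize l * g'' = t at hp3 f1 f2
  obtain ⟨j, hj, hcc, hpc, -⟩ := S.exists_invol (⊤ : Subgroup G) (Subgroup.mem_top t) (by decide) hp3
  refine ⟨a, b, t ^ j, ha, hb, hcc, hab, ?_, hpa, hpb, hpc⟩
  obtain ⟨i, hi⟩ := hj
  have h2 : Commute (t * t) a := by
    show t * t * a = a * (t * t)
    calc t * t * a = t * (t * a * t⁻¹) * t⁻¹ * (t * t) := by group
      _ = a * (t * t) := by rw [f1, f2]
  have hj' : t ^ j * a = b * t ^ j := by
    rw [hi, pow_succ', pow_mul, pow_two, mul_assoc, (h2.pow_left i).eq, ← f1]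
    group
  rw [hj', mul_assoc, hcc, mul_one]

variable {x : Fin 4 ↪ α} {a b c : G}

namespace Conf

variable (K : Conf x a b c)
include K

theorem hd : a * b * (a * b) = 1 := by
  calc a * b * (a * b) = a * b * (b * a) := by rw [← K.hab]
    _ = a * (b * b) * a := by group
    _ = 1 := by rw [K.hb, mul_one, K.ha]

theorem hcb : c * b * c = a := by
  rw [← K.hca]
  calc c * (c * a * c) * c = (c * c) * a * (c * c) := by group
    _ = a := by rw [K.hc, one_mul, mul_one]

theorem hcd : c * (a * b) = a * b * c := by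
  have h : c * (a * b) * c = a * b := by
    calc c * (a * b) * c = (c * a) * (c * c) * b * c := by rw [K.hc, mul_one]; group
      _ = (c * a * c) * (c * b * c) := by group
      _ = a * b := by rw [K.hca, K.hcb, K.hab]
  calc c * (a * b) = c * (a * b) * (c * c) := by rw [K.hc, mul_one]
    _ = c * (a * b) * c * c := by group
    _ = a * b * c := by rw [h]

theorem he : c * (a * b) * (c * (a * b)) = 1 := by
  calc c * (a * b) * (c * (a * b)) = c * (a * b) * (a * b * c) := by rw [← K.hcd]
    _ = c * (a * b * (a * b)) * c := by group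
    _ = 1 := by rw [K.hd, mul_one, K.hc]

theorem pd : Pat (a * b) πd x := fun i => by
  rw [mul_smul, K.pb, K.pa]
  exact congrArg x ((by decide : ∀ i, πa (πb i) = πd i) i)

theorem pe : Pat (c * (a * b)) ![3, 2, 1, 0] x := fun i => by
  rw [mul_smul, K.pd, K.pc]
  exact congrArg x ((by decide : ∀ i, πc (πd i) = ![3, 2, 1, 0] i) i)

theorem ne_one_a : a ≠ 1 := fun h => by
  have := K.pa 0
  rw [h, one_smul] at this
  exact absurd (x.injective this) (by decide)

theorem ne_one_d : a * b ≠ 1 := fun h => by
  have := K.pd 0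
  rw [h, one_smul] at this
  exact absurd (x.injective this) (by decide)

theorem ne_one_c : c ≠ 1 := fun h => by
  have := K.pc 0
  rw [h, one_smul] at this
  exact absurd (x.injective this) (by decide)

theorem ne_one_e : c * (a * b) ≠ 1 := fun h => by
  have := K.pe 0
  rw [h, one_smul] at this
  exact absurd (x.injective this) (by decide)

end Conf

theorem hcard_single {u : G} (y : Fin 4 ↪ α) :
    hcard u u y = Nat.card {g : G // g • y = y ∧ g * u = u * g} :=
  Nat.card_congr (Equiv.subtypeEquivRight fun g => by tauto)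

theorem hcard_pos [Finite G] (u v : G) (y : Fin 4 ↪ α) : 0 < hcard u v y := by
  haveI : Nonempty {g : G // g • y = y ∧ g * u = u * g ∧ g * v = v * g} := ⟨⟨1, by simp⟩⟩
  exact Nat.card_pos

theorem hcard_self_y (u : G) (y z : Fin 4 ↪ α) (h : Set.range y = Set.range z) (v : G) :
    hcard u v y = hcard u v z := by
  refine Nat.card_congr (Equiv.subtypeEquivRight fun g => ?_)
  have key : ∀ y z : Fin 4 ↪ α, Set.range z ⊆ Set.range y → g • y = y → g • z = z := fun y z hs hy => by
    refine smul_eq_iff_all.2 fun i => ?_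
    obtain ⟨j, hj⟩ := hs (Set.mem_range_self i)
    rw [← hj]; exact smul_eq_iff_all.1 hy j
  exact ⟨fun hh => ⟨key y z h.ge hh.1, hh.2⟩, fun hh => ⟨key z y h.le hh.1, hh.2⟩⟩

/-- Conjugation by an element normalising the stabiliser. -/
def stabConj (x : Fin 4 ↪ α) (u : G) (hu : u * u = 1) (hn : ∀ h ∈ MulAction.stabilizer G x,
    u * h * u ∈ MulAction.stabilizer G x) : MulAut (MulAction.stabilizer G x) where
  toFun h := ⟨u * h * u, hn h h.2⟩
  invFun h := ⟨u * h * u, hn h h.2⟩
  left_inv h := Subtype.ext (by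
    show u * (u * h * u) * u = h
    calc u * (u * (h : G) * u) * u = u * u * h * (u * u) := by group
      _ = h := by rw [hu, one_mul, mul_one])
  right_inv h := Subtype.ext (by
    show u * (u * h * u) * u = h
    calc u * (u * (h : G) * u) * u = u * u * h * (u * u) := by group
      _ = h := by rw [hu, one_mul, mul_one])
  map_mul' h k := Subtype.ext (by
    show u * (h * k) * u = u * h * u * (u * k * u)
    calc u * ((h : G) * k) * u = u * h * (u * u) * k * u := by rw [hu, mul_one]; group
      _ = u * h * u * (u * k * u) := by group)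

theorem pat_normalizes {u : G} {π : Fin 4 → Fin 4} {y : Fin 4 ↪ α} (hu : u * u = 1) (hp : Pat u π y) :
    ∀ h ∈ MulAction.stabilizer G y, u * h * u ∈ MulAction.stabilizer G y := fun h hh => by
  refine mem_stab_iff.2 fun i => ?_
  rw [mul_smul, mul_smul, hp, mem_stab_iff.1 hh, ← hp, ← mul_smul, hu, one_smul]

theorem fix_iff {u g : G} (hu : u * u = 1) : u * g * u = g ↔ g * u = u * g := by
  constructor
  · intro h
    calc g * u = u * g * u * u := by rw [h]
      _ = u * g := by rw [mul_assoc, hu, mul_one]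
  · intro h
    rw [mul_assoc, h, ← mul_assoc, hu, one_mul]

namespace Setup

variable (S : Setup G α)
include S

/-- The order formula in terms of centralisers. -/
theorem formula {u v : G} (hu : u * u = 1) (hv : v * v = 1) (huv : u * v = v * u) {π ρ : Fin 4 → Fin 4}
    (hup : Pat u π x) (hvp : Pat v ρ x) :
    Nat.card (MulAction.stabilizer G x) * hcard u v x ^ 2
      = hcard u u x * hcard v v x * hcard (u * v) (u * v) x := by
  have := S.finG
  let σ := stabConj x u hu (pat_normalizes hu hup)
  let τ := stabConj x v hv (pat_normalizes hv hvp)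
  have hσ : ∀ h, σ (σ h) = h := σ.left_inv
  have hτ : ∀ h, τ (τ h) = h := τ.left_inv
  have hcomm : ∀ h, σ (τ h) = τ (σ h) := fun h => Subtype.ext (by
    show u * (v * h * v) * u = v * (u * h * u) * v
    calc u * (v * (h : G) * v) * u = u * v * h * (v * u) := by group
      _ = v * (u * h * u) * v := by rw [← huv]; nth_rewrite 1 [huv]; group)
  have huvinv : u * v * (u * v) = 1 := by
    calc u * v * (u * v) = u * v * (v * u) := by rw [← huv]
      _ = u * (v * v) * u := by group
      _ = 1 := by rw [hv, mul_one, hu]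
  have e := four_formula (S.odd x) σ τ hσ hτ hcomm
  have c0 : Nat.card {h // σ h = h ∧ τ h = h} = hcard u v x := Nat.card_congr
    { toFun := fun h => ⟨h.1.1, h.1.2, (fix_iff hu).1 (congrArg Subtype.val h.2.1),
        (fix_iff hv).1 (congrArg Subtype.val h.2.2)⟩
      invFun := fun g => ⟨⟨g.1, g.2.1⟩, Subtype.ext ((fix_iff hu).2 g.2.2.1), Subtype.ext ((fix_iff hv).2 g.2.2.2)⟩
      left_inv := fun h => rfl
      right_inv := fun g => rfl }
  have c1 : Nat.card (fixC σ) = hcard u u x := (Nat.card_congr
    { toFun := fun h => ⟨h.1.1, h.1.2, (fix_iff hu).1 (congrArg Subtype.val h.2), (fix_iff hu).1 (congrArg Subtype.val h.2)⟩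
      invFun := fun g => ⟨⟨g.1, g.2.1⟩, Subtype.ext ((fix_iff hu).2 g.2.2.1)⟩
      left_inv := fun h => rfl
      right_inv := fun g => rfl })
  have c2 : Nat.card (fixC τ) = hcard v v x := (Nat.card_congr
    { toFun := fun h => ⟨h.1.1, h.1.2, (fix_iff hv).1 (congrArg Subtype.val h.2), (fix_iff hv).1 (congrArg Subtype.val h.2)⟩
      invFun := fun g => ⟨⟨g.1, g.2.1⟩, Subtype.ext ((fix_iff hv).2 g.2.2.1)⟩
      left_inv := fun h => rfl
      right_inv := fun g => rfl })
  have huv' : ∀ g : G, u * (v * g * v) * u = g ↔ g * (u * v) = u * v * g := fun g => by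
    rw [← fix_iff huvinv]
    constructor <;> intro h <;> refine Eq.trans ?_ h
    · calc u * v * g * (u * v) = u * v * g * (v * u) := by rw [← huv]
        _ = u * (v * g * v) * u := by group
    · calc u * (v * g * v) * u = u * v * g * (v * u) := by group
        _ = u * v * g * (u * v) := by rw [← huv]
  have c3 : Nat.card {h // σ (τ h) = h} = hcard (u * v) (u * v) x := Nat.card_congr
    { toFun := fun h => ⟨h.1.1, h.1.2, (huv' _).1 (congrArg Subtype.val h.2), (huv' _).1 (congrArg Subtype.val h.2)⟩
      invFun := fun g => ⟨⟨g.1, g.2.1⟩, Subtype.ext ((huv' _).2 g.2.2.1)⟩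
      left_inv := fun h => rfl
      right_inv := fun g => rfl }
  rw [c0, c1, c2, c3] at e
  exact e

/-- Elements of the stabiliser lie in a subgroup which contains the three centralisers. -/
theorem mem_of_centralizers {u v : G} (hu : u * u = 1) (hv : v * v = 1) (huv : u * v = v * u)
    {π ρ : Fin 4 → Fin 4} (hup : Pat u π x) (hvp : Pat v ρ x) (L : Subgroup G)
    (hL : ∀ g : G, g • x = x → (g * u = u * g ∨ g * v = v * g ∨ g * (u * v) = u * v * g) → g ∈ L)
    {g : G} (hg : g • x = x) : g ∈ L := by
  have := S.finG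
  let σ := stabConj x u hu (pat_normalizes hu hup)
  let τ := stabConj x v hv (pat_normalizes hv hvp)
  have hcomm : ∀ h, σ (τ h) = τ (σ h) := fun h => Subtype.ext (by
    show u * (v * h * v) * u = v * (u * h * u) * v
    calc u * (v * (h : G) * v) * u = u * v * h * (v * u) := by group
      _ = v * (u * h * u) * v := by rw [← huv]; nth_rewrite 1 [huv]; group)
  refine mem_of_fixed (S.odd x) σ τ σ.left_inv τ.left_inv hcomm (L.comap (MulAction.stabilizer G x).subtype)
    (fun h e => hL _ h.2 (Or.inl ((fix_iff hu).1 (congrArg Subtype.val e))))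
    (fun h e => hL _ h.2 (Or.inr (Or.inl ((fix_iff hv).1 (congrArg Subtype.val e))))) (fun h e => ?_) ⟨g, hg⟩
  refine hL _ h.2 (Or.inr (Or.inr ?_))
  have e' : u * (v * (h : G) * v) * u = h := congrArg Subtype.val e
  calc (h : G) * (u * v) = u * (v * h * v) * u * (u * v) := by rw [e']
    _ = u * (v * h * v) * (u * u) * v := by group
    _ = u * v * h * (v * v) := by rw [hu, mul_one]; group
    _ = u * v * h := by rw [hv, mul_one]

end Setup

end CfsgLib.JordanFour
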