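import Cfsg.Agent.JordanFour.Count

/-!
Jordan's theorem on four-fold transitive groups with an odd four-point stabiliser: degree seven or eleven.
-/

set_option autoImplicit false

open scoped Pointwise

namespace CfsgLib.JordanFour

variable {G α : Type*} [Group G] [MulAction G α] [Fintype α] [DecidableEq α]

/-- With at least seven points every involution is conjugate to the one moving all four. -/
theorem Setup.all_conj (S : Setup G α) (h7 : 7 ≤ Fintype.card α) {d : G} (hd : d * d = 1) {x : Fin 4 ↪ α}
    (hpd : Pat d πd x) {v : G} (hv : v * v = 1) (hv1 : v ≠ 1) : ∃ g : G, g * d * g⁻¹ = v := by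
  have hf := S.fixF_card_le hv hv1
  obtain ⟨p, hp⟩ : ((fixF v : Finset α)ᶜ).Nonempty := by
    rw [← Finset.card_pos, Finset.card_compl]; omega
  obtain ⟨q, hq⟩ : ((fixF v : Finset α)ᶜ \ {p, v • p}).Nonempty := by
    rw [← Finset.card_pos]
    have h1 := Finset.le_card_sdiff ({p, v • p} : Finset α) (fixF v : Finset α)ᶜ
    have h2 := Finset.card_le_two (a := p) (b := v • p)
    rw [Finset.card_compl] at h1
    omega
  simp only [Finset.mem_compl, mem_fixF] at hp
  simp only [Finset.mem_sdiff, Finset.mem_compl, mem_fixF, Finset.mem_insert, Finset.mem_singleton, not_or] at hq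
  obtain ⟨hq1, hq2, hq3⟩ := hq
  have hvp : v • v • p = p := involution_smul hv p
  have hvq : v • v • q = q := involution_smul hv q
  let z := mk4 p (v • p) q (v • q) (Ne.symm hp) (Ne.symm hq2) (fun h => hq3 (by rw [h, hvq])) (Ne.symm hq3)
    (fun h => hq2 (MulAction.injective v h).symm) (Ne.symm hq1)
  obtain ⟨g, -, hg⟩ := S.transport_one hd hv hpd (z := z) (pat_vec rfl hvp rfl hvq)
  exact ⟨g, hg⟩

theorem odd_pair_fixed [Finite G] {K : Subgroup G} (hK : Odd (Nat.card K)) {g : G} (hg : g ∈ K) {p q : α}
    (h1 : g • p = p ∨ g • p = q) (h2 : g • q = p ∨ g • q = q) : g • p = p := by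
  rcases h1 with h | h
  · exact h
  rcases h2 with h' | h'
  · obtain ⟨m, hm⟩ := hK.of_dvd_nat (Subgroup.orderOf_dvd_natCard _ hg)
    have h3 : g ^ 2 ∈ MulAction.stabilizer G p := by
      rw [MulAction.mem_stabilizer_iff, pow_two, mul_smul, h, h']
    have h4 : g ^ (2 * m) • p = p := by
      rw [pow_mul]; exact MulAction.mem_stabilizer_iff.1 (pow_mem h3 m)
    have h5 : g ^ orderOf g • p = p := by rw [pow_orderOf_eq_one, one_smul]
    rwa [hm, pow_succ', mul_smul, h4] at h5
  · exact (MulAction.injective g (h.trans h'.symm)).symm ▸ h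

/-- The list of consequences. -/
theorem Setup.main (S : Setup G α) (x : Fin 4 ↪ α) (h7 : 7 ≤ Fintype.card α) :
    (Fintype.card α = 7 ∧ 3 ∣ Nat.card (MulAction.stabilizer G x)) ∨
      (Fintype.card α = 11 ∧ ∃ k : ℕ, Nat.card (MulAction.stabilizer G x) = k ^ 3) := by
  classical
  have := S.finG
  obtain ⟨a, b, c, K⟩ := S.exists_conf x
  obtain ⟨n, hn⟩ : ∃ n, n = Fintype.card α := ⟨_, rfl⟩
  -- fixed points of involutions
  have hconj := fun v (hv : v * v = 1) (hv1 : v ≠ 1) => S.all_conj h7 K.hd K.pd hv hv1
  obtain ⟨f, hf⟩ : ∃ f, f = (fixF a : Finset α).card := ⟨_, rfl⟩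
  have hfd : (fixF (a * b) : Finset α).card = f := by
    obtain ⟨g, hg⟩ := hconj a K.ha K.ne_one_a
    have h := card_fixF_conj (α := α) g (a * b)
    rw [hg] at h
    rw [hf, h]
  have hfall : ∀ v : G, v * v = 1 → v ≠ 1 → (fixF v : Finset α).card = f := fun v hv hv1 => by
    obtain ⟨g, rfl⟩ := hconj v hv hv1
    rw [card_fixF_conj, hfd]
  have hb1 : b ≠ 1 := fun h => by
    have := K.pb 2
    rw [h, one_smul] at this
    exact absurd (x.injective this) (by decide)
  have hf3 : f ≤ 3 := hf ▸ S.fixF_card_le K.ha K.ne_one_a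
  have hx23 : ({x 2, x 3} : Finset α) ⊆ fixF a := by
    intro p hp
    simp only [Finset.mem_insert, Finset.mem_singleton] at hp
    rcases hp with rfl | rfl
    · exact mem_fixF.2 (K.pa 2)
    · exact mem_fixF.2 (K.pa 3)
  have hne23 : x 2 ≠ x 3 := x.injective.ne (by decide)
  have hne01 : x 0 ≠ x 1 := x.injective.ne (by decide)
  have hf2 : 2 ≤ f := by
    have := Finset.card_le_card hx23
    rw [Finset.card_pair hne23] at this
    omega
  have hpar : 2 ∣ n - f := by rw [hn, hf]; exact two_dvd_moved K.ha
  -- centraliser orders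
  obtain ⟨A, hA⟩ : ∃ A, A = hcard a a x := ⟨_, rfl⟩
  obtain ⟨D, hD⟩ : ∃ D, D = hcard (a * b) (a * b) x := ⟨_, rfl⟩
  obtain ⟨V0, hV0⟩ : ∃ V, V = hcard a b x := ⟨_, rfl⟩
  obtain ⟨W0, hW0⟩ : ∃ V, V = hcard (a * b) c x := ⟨_, rfl⟩
  have hDpos : 0 < D := hD ▸ hcard_pos _ _ _
  have hApos : 0 < A := hA ▸ hcard_pos _ _ _
  have hWpos : 0 < W0 := hW0 ▸ hcard_pos _ _ _
  have hrel1 : (f * f - f) * A = (n - f - 2) * D := by
    have e1 := S.count K.ha K.ha (Commute.refl a) K.pa K.pa
    have e2 := S.count K.hd K.hd (Commute.refl (a * b)) K.pd K.pd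
    rw [card_pat_a K.ha, ← hf, ← hn, ← hA] at e1
    rw [card_pat_d K.hd, hfd, ← hn, ← hD] at e2
    have e3 : ccard a a = ccard (a * b) (a * b) := by
      obtain ⟨g, hg⟩ := hconj a K.ha K.ne_one_a
      have h := ccard_conj g (a * b) (a * b)
      rw [hg] at h
      exact h
    rw [e1, e2] at e3
    have hnf : 0 < n - f := by omega
    refine Nat.eq_of_mul_eq_mul_left hnf ?_
    rw [← mul_assoc, ← mul_assoc, mul_comm (n - f) (f * f - f), e3]
  have hb' : hcard b b x = A := by
    have h : c * a * c⁻¹ = b := by rw [inv_eq_of_mul_eq_one_right K.hc, K.hca]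
    have h2 := hcard_conj c a a x
    rw [h] at h2
    rw [hA, ← h2]
    exact hcard_self_y b x (c • x) (by
      ext p
      constructor
      · rintro ⟨i, rfl⟩
        exact ⟨πc i, (K.pc (πc i)).trans (congrArg x ((by decide : ∀ i, πc (πc i) = i) i))⟩
      · rintro ⟨i, rfl⟩; exact ⟨πc i, (K.pc i).symm⟩) b
  have hrotate : hcard c c x = D ∧ hcard (c * (a * b)) (c * (a * b)) x = D := by
    let y : Fin 4 ↪ α := ⟨fun i => x (![0, 2, 3, 1] i), x.injective.comp (by decide)⟩
    have hy : Set.range y = Set.range x := by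
      refine Set.Subset.antisymm (by rintro _ ⟨i, rfl⟩; exact ⟨_, rfl⟩) ?_
      rintro _ ⟨i, rfl⟩
      exact ⟨![0, 3, 1, 2] i, congrArg x ((by decide : ∀ i, ![0, 2, 3, 1] ((![0, 3, 1, 2] : Fin 4 → Fin 4) i) = i) i)⟩
    have hce : Commute c (c * (a * b)) := (Commute.refl c).mul_right K.hcd
    obtain ⟨g, hg, g1, g2⟩ := S.transport K.hd K.hc K.hc K.he K.hcd.symm hce K.pd K.pc (z := y)
      (fun i => (K.pc _).trans (congrArg x ((by decide : ∀ i, πc ((![0, 2, 3, 1] : Fin 4 → Fin 4) i) = ![0, 2, 3, 1] (πd i)) i)))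
      (fun i => (K.pe _).trans (congrArg x ((by decide : ∀ i,
        (![3, 2, 1, 0] : Fin 4 → Fin 4) ((![0, 2, 3, 1] : Fin 4 → Fin 4) i) = ![0, 2, 3, 1] (πc i)) i)))
    have e1 := hcard_conj g (a * b) (a * b) x
    have e2 := hcard_conj g c c x
    rw [g1, hg, hcard_self_y c y x hy c] at e1
    rw [g2, hg, hcard_self_y _ y x hy] at e2
    exact ⟨hD ▸ e1, e2.trans (hD ▸ e1)⟩
  obtain ⟨hc', he'⟩ := hrotate
  have hV := S.formula K.ha K.hb K.hab K.pa K.pb
  have hW := S.formula K.hd K.hc K.hcd.symm K.pd K.pc
  rw [← hA, hb', ← hV0, ← hD] at hV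
  rw [← K.hcd, he', hc', ← hW0, ← hD] at hW
  have hVD : V0 * D = A * W0 := by
    have hHpos : 0 < Nat.card (MulAction.stabilizer G x) := Nat.card_pos
    refine Nat.pow_left_injective (show (2 : ℕ) ≠ 0 by norm_num) ?_
    refine Nat.eq_of_mul_eq_mul_left (Nat.mul_pos hHpos hDpos) ?_
    show _ * (V0 * D) ^ 2 = _ * (A * W0) ^ 2
    calc Nat.card (MulAction.stabilizer G x) * D * (V0 * D) ^ 2
        = (Nat.card (MulAction.stabilizer G x) * V0 ^ 2) * D ^ 3 := by ring
      _ = A * A * D * (Nat.card (MulAction.stabilizer G x) * W0 ^ 2) := by rw [hV, hW]; ring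
      _ = _ := by ring
  have hrel2 : (f * f - f) * V0 = (n - f - 2) * W0 := by
    refine Nat.eq_of_mul_eq_mul_left hDpos ?_
    calc D * ((f * f - f) * V0) = (f * f - f) * (V0 * D) := by ring
      _ = ((f * f - f) * A) * W0 := by rw [hVD]; ring
      _ = D * ((n - f - 2) * W0) := by rw [hrel1]; ring
  -- the common fixed points
  have hbfa : ∀ p : α, a • p = p → a • b • p = b • p := fun p hp => by
    rw [← mul_smul, K.hab, mul_smul, hp]
  have hafb : ∀ p : α, b • p = p → b • a • p = a • p := fun p hp => by
    rw [← mul_smul, ← K.hab, mul_smul, hp]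
  have hmovA : ((fixF a : Finset α).filter fun p => b • p ≠ p) = {x 2, x 3} := by
    refine (Finset.Subset.antisymm ?_ ?_)
    · intro p hp
      rw [Finset.mem_filter, mem_fixF] at hp
      by_contra hnot
      simp only [Finset.mem_insert, Finset.mem_singleton, not_or] at hnot
      have h1 : b • p ≠ x 2 := fun h => hnot.2 (by
        rw [← involution_smul K.hb p, h, K.pb 2]; rfl)
      have h2 : b • p ≠ x 3 := fun h => hnot.1 (by
        rw [← involution_smul K.hb p, h, K.pb 3]; rfl)
      refine S.fix_le K.ha K.ne_one_a (mk4 (x 2) (x 3) p (b • p) hne23 (Ne.symm hnot.1) (Ne.symm h1)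
        (Ne.symm hnot.2) (Ne.symm h2) (Ne.symm hp.2)) (mk4 _ _ _ _ _ _ _ _ _ _).injective fun i => ?_
      fin_cases i
      exacts [K.pa 2, K.pa 3, hp.1, hbfa p hp.1]
    · intro p hp
      simp only [Finset.mem_insert, Finset.mem_singleton] at hp
      rw [Finset.mem_filter, mem_fixF]
      rcases hp with rfl | rfl
      · exact ⟨K.pa 2, (K.pb 2).trans_ne (Ne.symm hne23)⟩
      · exact ⟨K.pa 3, (K.pb 3).trans_ne hne23⟩
  have hmovB : ((fixF b : Finset α).filter fun p => a • p ≠ p) = {x 0, x 1} := by
    refine (Finset.Subset.antisymm ?_ ?_)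
    · intro p hp
      rw [Finset.mem_filter, mem_fixF] at hp
      by_contra hnot
      simp only [Finset.mem_insert, Finset.mem_singleton, not_or] at hnot
      have h1 : a • p ≠ x 0 := fun h => hnot.2 (by
        rw [← involution_smul K.ha p, h, K.pa 0]; rfl)
      have h2 : a • p ≠ x 1 := fun h => hnot.1 (by
        rw [← involution_smul K.ha p, h, K.pa 1]; rfl)
      refine S.fix_le K.hb hb1 (mk4 (x 0) (x 1) p (a • p) hne01 (Ne.symm hnot.1) (Ne.symm h1)
        (Ne.symm hnot.2) (Ne.symm h2) (Ne.symm hp.2)) (mk4 _ _ _ _ _ _ _ _ _ _).injective fun i => ?_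
      fin_cases i
      exacts [K.pb 0, K.pb 1, hp.1, hafb p hp.1]
    · intro p hp
      simp only [Finset.mem_insert, Finset.mem_singleton] at hp
      rw [Finset.mem_filter, mem_fixF]
      rcases hp with rfl | rfl
      · exact ⟨K.pb 0, (K.pa 0).trans_ne (Ne.symm hne01)⟩
      · exact ⟨K.pb 1, (K.pa 1).trans_ne hne01⟩
  have hCV : ccard a b = 4 * V0 := by
    rw [S.count K.ha K.hb K.hab K.pa K.pb, card_pat_pair K.ha K.hb K.hab, hmovA, hmovB, Finset.card_pair hne23,
      Finset.card_pair hne01, ← hV0]
  let Z : Finset α := (fixF a : Finset α).filter fun p => b • p = p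
  have hZc : Z.card = f - 2 := by
    have h := Finset.card_filter_add_card_filter_not (s := (fixF a : Finset α)) (fun p => b • p = p)
    rw [hmovA, Finset.card_pair hne23, ← hf] at h
    show ((fixF a : Finset α).filter fun p => b • p = p).card = _
    omega
  have hZmem : ∀ {p}, p ∈ Z ↔ a • p = p ∧ b • p = p := fun {p} => by simp [Z, mem_fixF]
  have hcZ : ∀ p ∈ Z, c • p = p := fun p hp => by
    obtain ⟨h1, h2⟩ := hZmem.1 hp
    have hcp : c • p ∈ Z := by
      have ha' : a * c = c * b := by
        calc a * c = (c * c) * a * c := by rw [K.hc, one_mul]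
          _ = c * (c * a * c) := by group
          _ = c * b := by rw [K.hca]
      have hb'' : b * c = c * a := by
        calc b * c = (c * c) * b * c := by rw [K.hc, one_mul]
          _ = c * (c * b * c) := by group
          _ = c * a := by rw [K.hcb]
      rw [hZmem, ← mul_smul, ← mul_smul, ha', hb'', mul_smul, mul_smul, h1, h2]
      exact ⟨rfl, rfl⟩
    exact Finset.card_le_one.1 (by rw [hZc]; omega) _ hcp _ hp
  have hZd : Z ⊆ fixF (a * b) := fun p hp => by
    obtain ⟨h1, h2⟩ := hZmem.1 hp
    rw [mem_fixF, mul_smul, h2, h1]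
  -- the two further fixed points of the central involution
  have hD2 : ((fixF (a * b) : Finset α) \ Z).card = 2 := by
    rw [Finset.card_sdiff_of_subset hZd, hfd, hZc]; omega
  obtain ⟨u0, u1, hu01, hD2e⟩ := Finset.card_eq_two.1 hD2
  have hmemD : ∀ p, (a * b) • p = p → p ∉ Z → p = u0 ∨ p = u1 := fun p h1 h2 => by
    have : p ∈ (fixF (a * b) : Finset α) \ Z := Finset.mem_sdiff.2 ⟨mem_fixF.2 h1, h2⟩
    rw [hD2e] at this
    simpa using this
  have hu : ∀ u, u = u0 ∨ u = u1 → (a * b) • u = u ∧ u ∉ Z := fun u hu => by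
    have : u ∈ (fixF (a * b) : Finset α) \ Z := by rw [hD2e]; simpa using hu
    exact ⟨mem_fixF.1 (Finset.mem_sdiff.1 this).1, (Finset.mem_sdiff.1 this).2⟩
  obtain ⟨hd0, hz0⟩ := hu u0 (Or.inl rfl)
  obtain ⟨hd1, hz1⟩ := hu u1 (Or.inr rfl)
  have had : a * (a * b) = a * b * a := by rw [mul_assoc a b a, ← K.hab]
  have hau : a • u0 = u1 := by
    have h1 : (a * b) • a • u0 = a • u0 := by rw [← mul_smul, ← had, mul_smul, hd0]
    have h2 : a • u0 ≠ u0 := fun h => hz0 (hZmem.2 ⟨h, by
      have := hd0; rw [K.hab, mul_smul, h] at this; exact this⟩)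
    have h3 : a • u0 ∉ Z := fun h => h2 (by
      have := (hZmem.1 h).1; rwa [involution_smul K.ha, eq_comm] at this)
    exact (hmemD _ h1 h3).resolve_left h2
  have hcu : c • u0 = u0 ∨ c • u0 = u1 := hmemD _ (by rw [← mul_smul, ← K.hcd, mul_smul, hd0])
    (fun h => hz0 (by
      have h' := hcZ _ h
      rw [involution_smul K.hc] at h'
      rwa [← h'] at h))
  have hne : c * (a * b) ≠ 1 := K.ne_one_e
  rcases hcu with hcu | hcu
  · -- the three involutions have the same fixed points
    have hcu1 : c • u1 = u1 := by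
      have hbu : b • u0 = u1 := by
        rw [← hau]
        calc b • u0 = b • (a * b) • u0 := by rw [hd0]
          _ = (b * (a * b)) • u0 := (mul_smul b (a * b) u0).symm
          _ = a • u0 := by rw [K.hab, ← mul_assoc, K.hb, one_mul]
      have hca' : c * a = b * c := by
        calc c * a = c * a * (c * c) := by rw [K.hc, mul_one]
          _ = (c * a * c) * c := by group
          _ = b * c := by rw [K.hca]
      rw [← hau, ← mul_smul, hca', mul_smul, hcu, hbu, hau]
    have hFd : ∀ p, (a * b) • p = p → c • p = p := fun p hp => by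
      by_cases hz : p ∈ Z
      · exact hcZ p hz
      · rcases hmemD p hp hz with rfl | rfl
        exacts [hcu, hcu1]
    have hFc : (fixF c : Finset α) = fixF (a * b) := (Finset.eq_of_subset_of_card_le
      (fun p hp => mem_fixF.2 (hFd p (mem_fixF.1 hp))) (by rw [hfd, hfall c K.hc K.ne_one_c])).symm
    have hFe : (fixF (c * (a * b)) : Finset α) = fixF (a * b) := (Finset.eq_of_subset_of_card_le
      (fun p hp => mem_fixF.2 (by rw [mul_smul, mem_fixF.1 hp, hFd p (mem_fixF.1 hp)]))
      (by rw [hfd, hfall _ K.he hne])).symm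
    let L : Subgroup G := MulAction.stabilizer G ((fixF (a * b) : Finset α) : Set α)
    have hpres : ∀ (v g : G), (fixF v : Finset α) = fixF (a * b) → g * v = v * g → g ∈ L := fun v g hv hg => by
      show g ∈ MulAction.stabilizer G ((fixF (a * b) : Finset α) : Set α)
      rw [MulAction.mem_stabilizer_iff, ← hv]
      refine Set.Subset.antisymm ?_ fun p hp => ⟨g⁻¹ • p, ?_, smul_inv_smul g p⟩
      · rintro _ ⟨p, hp, rfl⟩
        simp only [Finset.mem_coe, mem_fixF] at hp ⊢
        show v • g • p = g • p
        rw [← mul_smul, ← hg, mul_smul, hp]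
      · simp only [Finset.mem_coe, mem_fixF] at hp ⊢
        apply MulAction.injective g
        show g • v • g⁻¹ • p = g • g⁻¹ • p
        rw [← mul_smul g v, hg, mul_smul, smul_inv_smul, hp]
    have hL : ∀ g : G, g • x = x → g ∈ L := fun g hg => by
      refine S.mem_of_centralizers K.hd K.hc K.hcd.symm K.pd K.pc L (fun k _ hk => ?_) hg
      rcases hk with hk | hk | hk
      · exact hpres _ k rfl hk
      · exact hpres _ k hFc hk
      · exact hpres _ k hFe (by rwa [K.hcd])
    -- the centraliser of the transposition fixes a cycle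
    have hAle : A ≤ D := by
      let y : Fin 4 ↪ α := mk4 (x 0) (x 1) u0 u1 hne01
        (fun h => by have := hd0; rw [← h, K.pd 0] at this; exact hne01 this.symm)
        (fun h => by have := hd1; rw [← h, K.pd 0] at this; exact hne01 this.symm)
        (fun h => by have := hd0; rw [← h, K.pd 1] at this; exact hne01 this)
        (fun h => by have := hd1; rw [← h, K.pd 1] at this; exact hne01 this)
        hu01
      have hau1 : a • u1 = u0 := by rw [← hau, involution_smul K.ha]
      obtain ⟨g, hg, hga⟩ := S.transport_one K.hd K.ha K.pd (z := y)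
        (pat_vec (K.pa 0) (K.pa 1) hau hau1)
      have e := hcard_conj g (a * b) (a * b) x
      rw [hga, hg] at e
      rw [hA, hD, ← e, hcard_single, hcard_single]
      refine Nat.card_le_card_of_injective (fun g => ⟨g.1, ?_, g.2.2⟩)
        (fun g g' h => Subtype.ext (congrArg Subtype.val h :))
      obtain ⟨g, hgx, hga'⟩ := g
      have hgL := hL g hgx
      have hmapF : ∀ p, (a * b) • p = p → (a * b) • g • p = g • p := fun p hp => by
        have h := MulAction.mem_stabilizer_iff.1 hgL
        have : g • p ∈ ((fixF (a * b) : Finset α) : Set α) := h ▸ Set.smul_mem_smul_set (mem_fixF.2 hp)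
        exact mem_fixF.1 this
      have hgZ : ∀ p ∈ Z, g • p ∈ Z := fun p hp => by
        obtain ⟨h1, h2⟩ := hZmem.1 hp
        have h3 : a • g • p = g • p := by rw [← mul_smul, ← hga', mul_smul, h1]
        have h4 := hmapF p (mem_fixF.1 (hZd hp))
        rw [K.hab, mul_smul, h3] at h4
        exact hZmem.2 ⟨h3, h4⟩
      have hgu : ∀ u, u = u0 ∨ u = u1 → g • u = u0 ∨ g • u = u1 := fun u hu' => by
        refine hmemD _ (hmapF u (hu u hu').1) fun hz => (hu u hu').2 ?_
        have he : g • g • u = g • u := Finset.card_le_one.1 (by rw [hZc]; omega) _ (hgZ _ hz) _ hz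
        rwa [MulAction.injective g he] at hz
      have h0 := odd_pair_fixed (S.odd x) (g := g) hgx (hgu u0 (Or.inl rfl)) (hgu u1 (Or.inr rfl))
      have h1 := odd_pair_fixed (S.odd x) (g := g) hgx (hgu u1 (Or.inr rfl)).symm (hgu u0 (Or.inl rfl)).symm
      refine smul_eq_iff_all.2 fun i => ?_
      fin_cases i
      exacts [smul_eq_iff_all.1 hgx 0, smul_eq_iff_all.1 hgx 1, h0, h1]
    -- semiregular action of the four-group
    have hR : (Finset.univ.filter fun p : α => (a * b) • p ≠ p ∧ c • p ≠ p ∧ (c * (a * b)) • p ≠ p)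
        = (fixF (a * b) : Finset α)ᶜ := by
      ext p
      simp only [Finset.mem_filter, Finset.mem_univ, true_and, Finset.mem_compl, mem_fixF]
      refine ⟨fun h => h.1, fun h => ⟨h, fun h' => h ?_, fun h' => h ?_⟩⟩
      · exact mem_fixF.1 (hFc ▸ (mem_fixF.2 h'))
      · exact mem_fixF.1 (hFe ▸ (mem_fixF.2 h'))
    have h4 : 4 ∣ n - f := by
      have e := S.count K.hd K.hc K.hcd.symm K.pd K.pc
      rw [card_pat_regular K.hd K.hc K.hcd, hR, Finset.card_compl, hfd, ← hn, ← hW0] at e
      let C : Subgroup G := Subgroup.centralizer {a * b, c}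
      have hCc : Nat.card C = ccard (a * b) c := Nat.card_congr (Equiv.subtypeEquivRight fun g => by
        show g ∈ Subgroup.centralizer ({a * b, c} : Set G) ↔ _
        rw [Subgroup.mem_centralizer_iff]
        exact ⟨fun h => ⟨(h _ (Or.inl rfl)).symm, (h _ (Or.inr rfl)).symm⟩,
          fun h w hw => by rcases hw with rfl | rfl; exacts [h.1.symm, h.2.symm]⟩)
      let W : Subgroup G :=
        { carrier := {1, a * b, c, c * (a * b)}
          one_mem' := by simp
          inv_mem' := by
            rintro g (hg | hg | hg | hg) <;> rw [hg]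
            · simp
            · rw [inv_eq_of_mul_eq_one_right K.hd]; simp
            · rw [inv_eq_of_mul_eq_one_right K.hc]; simp
            · rw [inv_eq_of_mul_eq_one_right K.he]; simp
          mul_mem' := by
            have e1 : c * (c * (a * b)) = a * b := by rw [← mul_assoc, K.hc, one_mul]
            have e2 : a * b * (c * (a * b)) = c := by rw [← mul_assoc, ← K.hcd, mul_assoc, K.hd, mul_one]
            have e3 : c * (a * b) * c = a * b := by rw [K.hcd, mul_assoc, K.hc, mul_one]
            have e4 : c * (a * b) * (a * b) = c := by rw [mul_assoc, K.hd, mul_one]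
            rintro g h (hg | hg | hg | hg) (hh | hh | hh | hh) <;> rw [hg, hh] <;>
              simp only [one_mul, mul_one, K.hd, K.hc, K.he, e1, e2, e3, e4, ← K.hcd, Set.mem_insert_iff,
                Set.mem_singleton_iff, true_or, or_true] }
      have hWC : W ≤ C := by
        have k1 : a * b * (c * (a * b)) = c * (a * b) * (a * b) := by rw [← mul_assoc, ← K.hcd]
        have k2 : c * (c * (a * b)) = c * (a * b) * c := by rw [mul_assoc c (a * b) c, ← K.hcd]
        rintro g (hg | hg | hg | hg) <;> rw [hg, Subgroup.mem_centralizer_iff] <;> rintro w (hw | hw) <;> rw [hw]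
        · simp
        · simp
        · exact K.hcd
        · exact K.hcd.symm
        · exact k1
        · exact k2
      have hW4 : Nat.card W = 4 := by
        show Nat.card ({1, a * b, c, c * (a * b)} : Set G) = 4
        have h1 : a * b ≠ c := fun h => by
          have h1 := K.pd 0
          rw [h, K.pc 0] at h1
          exact absurd (x.injective h1) (by decide)
        have h2 : a * b ≠ c * (a * b) := fun h => K.ne_one_c (mul_eq_right.1 h.symm)
        have h3 : c ≠ c * (a * b) := fun h => K.ne_one_d (mul_eq_left.1 h.symm)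
        rw [Nat.card_coe_set_eq, Set.ncard_insert_of_notMem (by
            simp [K.ne_one_d.symm, K.ne_one_c.symm, hne.symm]),
          Set.ncard_insert_of_notMem (by simp [h1, h2]), Set.ncard_pair h3]
      have hdvd := Subgroup.card_dvd_of_le hWC
      rw [hW4, hCc, e] at hdvd
      have hodd : W0.Coprime 2 := by
        refine (Nat.coprime_two_right.2 ((S.odd x).of_dvd_nat ?_))
        rw [hW0]
        let M : Subgroup G := MulAction.stabilizer G x ⊓ C
        refine dvd_trans (dvd_of_eq (?_ : _ = Nat.card M)) (Subgroup.card_dvd_of_le inf_le_left)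
        refine Nat.card_congr (Equiv.subtypeEquivRight fun g => ?_)
        show _ ↔ g ∈ MulAction.stabilizer G x ⊓ Subgroup.centralizer ({a * b, c} : Set G)
        rw [Subgroup.mem_inf, Subgroup.mem_centralizer_iff]
        exact ⟨fun h => ⟨h.1, fun w hw => by rcases hw with rfl | rfl; exacts [h.2.1.symm, h.2.2.symm]⟩,
          fun h => ⟨h.1, (h.2 _ (Or.inl rfl)).symm, (h.2 _ (Or.inr rfl)).symm⟩⟩
      exact (show (4 : ℕ).Coprime W0 from (Nat.Coprime.pow_right 2 hodd).symm).dvd_of_dvd_mul_right hdvd
    have hbound : n - f - 2 ≤ f * f - f := by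
      by_contra hlt
      have : (f * f - f) * A < (n - f - 2) * D :=
        calc (f * f - f) * A ≤ (f * f - f) * D := Nat.mul_le_mul_left _ hAle
          _ < _ := Nat.mul_lt_mul_of_lt_of_le (by omega) le_rfl hDpos
      omega
    obtain rfl : f = 3 := by
      by_contra hne3
      obtain rfl : f = 2 := by omega
      omega
    rcases (show n = 7 ∨ n = 11 by omega) with h | h
    · refine Or.inl ⟨hn ▸ h, ?_⟩
      rw [h] at hrel1
      have h3 : 3 ∣ D := ⟨A, by omega⟩
      refine h3.trans ?_
      rw [hD]
      let M : Subgroup G := MulAction.stabilizer G x ⊓ Subgroup.centralizer {a * b}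
      refine dvd_trans (dvd_of_eq (?_ : _ = Nat.card M)) (Subgroup.card_dvd_of_le inf_le_left)
      rw [hcard_single]
      refine Nat.card_congr (Equiv.subtypeEquivRight fun g => ?_)
      show _ ↔ g ∈ MulAction.stabilizer G x ⊓ Subgroup.centralizer ({a * b} : Set G)
      rw [Subgroup.mem_inf, Subgroup.mem_centralizer_singleton_iff]
      exact Iff.rfl
    · -- four points outside give a contradiction
      exfalso
      let Q : Finset α := Finset.univ.image x
      obtain ⟨q, hq⟩ : (Finset.univ \ (Q ∪ fixF (a * b))).Nonempty := by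
        rw [← Finset.card_pos, ← Finset.compl_eq_univ_sdiff, Finset.card_compl]
        have h1 := Finset.card_union_le Q (fixF (a * b) : Finset α)
        have h2 : Q.card ≤ 4 := Finset.card_image_le.trans (by simp)
        omega
      rw [Finset.mem_sdiff, Finset.mem_union, not_or] at hq
      obtain ⟨-, hqQ, hqF⟩ := hq
      have hmov : ∀ p, p ∉ Q → p ∉ (fixF (a * b) : Finset α) → a • p ≠ p ∧ b • p ≠ p := fun p hpQ hpF => by
        constructor <;> intro hp
        · have hbp : b • p ≠ p := fun hbp => hpF (mem_fixF.2 (by rw [mul_smul, hbp, hp]))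
          have : p ∈ ((fixF a : Finset α).filter fun p => b • p ≠ p) := Finset.mem_filter.2 ⟨mem_fixF.2 hp, hbp⟩
          rw [hmovA] at this
          simp only [Finset.mem_insert, Finset.mem_singleton] at this
          rcases this with rfl | rfl <;> exact hpQ (Finset.mem_image_of_mem x (Finset.mem_univ _))
        · have hap : a • p ≠ p := fun hap => hpF (mem_fixF.2 (by rw [mul_smul, hp, hap]))
          have : p ∈ ((fixF b : Finset α).filter fun p => a • p ≠ p) := Finset.mem_filter.2 ⟨mem_fixF.2 hp, hap⟩
          rw [hmovB] at this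
          simp only [Finset.mem_insert, Finset.mem_singleton] at this
          rcases this with rfl | rfl <;> exact hpQ (Finset.mem_image_of_mem x (Finset.mem_univ _))
      -- stability of the complement
      have hQs : ∀ {v : G} {π : Fin 4 → Fin 4}, Pat v π x → v * v = 1 → v • q ∉ Q := fun {v π} hp hv h => by
        obtain ⟨i, -, hi⟩ := Finset.mem_image.1 h
        refine hqQ ?_
        rw [← involution_smul hv q, ← hi, hp]
        exact Finset.mem_image_of_mem x (Finset.mem_univ _)
      have hFs : ∀ {v : G}, v * (a * b) = a * b * v → v * v = 1 → v • q ∉ (fixF (a * b) : Finset α) := fun {v} hc hv h => by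
        refine hqF (mem_fixF.2 ?_)
        apply MulAction.injective v
        show v • (a * b) • q = v • q
        rw [← mul_smul, hc, mul_smul, mem_fixF.1 h]
      have hQc : (Finset.univ \ (Q ∪ fixF (a * b))).card ≤ 4 := by
        rw [← Finset.compl_eq_univ_sdiff, Finset.card_compl, Finset.card_union_of_disjoint]
        · have h2 : Q.card = 4 := by rw [Finset.card_image_of_injective _ x.injective]; simp
          omega
        · rw [Finset.disjoint_left]
          intro p hp hp'
          obtain ⟨i, -, rfl⟩ := Finset.mem_image.1 hp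
          have := mem_fixF.1 hp'
          rw [K.pd i] at this
          exact absurd (x.injective this) ((by decide : ∀ i, πd i ≠ i) i)
      have hdq : (a * b) • q ≠ q := fun h => hqF (mem_fixF.2 h)
      have hcq : c • q ≠ q := fun h => hqF (hFc ▸ mem_fixF.2 h)
      have heq' : (c * (a * b)) • q ≠ q := fun h => hqF (hFe ▸ mem_fixF.2 h)
      obtain ⟨haq, hbq⟩ := hmov q hqQ hqF
      have hsub : ({q, (a * b) • q, c • q, (c * (a * b)) • q, a • q} : Finset α) ⊆ Finset.univ \ (Q ∪ fixF (a * b)) := by
        intro p hp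
        simp only [Finset.mem_insert, Finset.mem_singleton] at hp
        simp only [Finset.mem_sdiff, Finset.mem_univ, true_and, Finset.mem_union, not_or]
        rcases hp with rfl | rfl | rfl | rfl | rfl
        · exact ⟨hqQ, hqF⟩
        · exact ⟨hQs K.pd K.hd, hFs rfl K.hd⟩
        · exact ⟨hQs K.pc K.hc, hFs K.hcd K.hc⟩
        · exact ⟨hQs K.pe K.he, hFs ((show Commute c (a * b) from K.hcd).mul_left (Commute.refl _)).eq K.he⟩
        · exact ⟨hQs K.pa K.ha, hFs had K.ha⟩
      have hlt := (Finset.card_le_card hsub).trans hQc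
      have hdc : (a * b) • q ≠ c • q := fun h => heq' (by rw [mul_smul, h, involution_smul K.hc])
      have hde : (a * b) • q ≠ (c * (a * b)) • q := fun h => by
        rw [K.hcd, mul_smul (a * b) c] at h
        exact hcq (MulAction.injective (a * b) h).symm
      have hce : c • q ≠ (c * (a * b)) • q := fun h => by
        rw [mul_smul] at h
        exact hdq (MulAction.injective c h).symm
      have hcases : a • q = (a * b) • q ∨ a • q = c • q ∨ a • q = (c * (a * b)) • q := by
        by_contra hno
        rw [not_or, not_or] at hno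
        obtain ⟨n1, n2, n3⟩ := hno
        rw [Finset.card_insert_of_notMem (by simp [Ne.symm hdq, Ne.symm hcq, Ne.symm heq', Ne.symm haq]),
          Finset.card_insert_of_notMem (by simp [hdc, hde, Ne.symm n1]),
          Finset.card_insert_of_notMem (by simp [hce, Ne.symm n2]), Finset.card_pair (Ne.symm n3)] at hlt
        omega
      rcases hcases with h | h | h
      · rw [mul_smul] at h
        exact hbq (MulAction.injective a h).symm
      · have hac : a * c = c * b := by
          calc a * c = (c * c) * a * c := by rw [K.hc, one_mul]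
            _ = c * (c * a * c) := by group
            _ = c * b := by rw [K.hca]
        have h2 : a • c • q = q := by rw [← h, involution_smul K.ha]
        have h3 : c • b • q = q := by rw [← mul_smul, ← hac, mul_smul, h2]
        have h4 : b • q = c • q := by
          have := congrArg (c • ·) h3
          simp only [involution_smul K.hc] at this
          exact this
        exact hdq (by rw [mul_smul, h4, h2])
      · have hca' : c * a = b * c := by
          calc c * a = c * a * (c * c) := by rw [K.hc, mul_one]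
            _ = (c * a * c) * c := by group
            _ = b * c := by rw [K.hca]
        have h2 : b • c • q = b • a • q := by
          calc b • c • q = c • a • q := by rw [← mul_smul, ← hca', mul_smul]
            _ = (a * b) • q := by rw [h, mul_smul c, involution_smul K.hc]
            _ = b • a • q := by rw [K.hab, mul_smul]
        have h3 : c • q = c • (a * b) • q := by
          rw [← mul_smul, ← h]; exact MulAction.injective b h2
        exact hdq (MulAction.injective c h3).symm
  · -- pairwise disjoint fixed points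
    have hdiscd : ∀ p, (a * b) • p = p → c • p = p → p ∈ Z := fun p h1 h2 => by
      by_contra hz
      rcases hmemD p h1 hz with rfl | rfl
      · exact hu01 (h2.symm.trans hcu)
      · exact hu01 (by
          rw [← involution_smul K.hc u0, hcu, h2])
    have hinter : ∀ v w : G, (∀ p, v • p = p → w • p = p → (a * b) • p = p ∧ c • p = p) →
        (∀ p ∈ Z, v • p = p ∧ w • p = p) → (fixF v : Finset α) ∩ fixF w = Z := fun v w h1 h2 => by
      ext p
      simp only [Finset.mem_inter, mem_fixF]
      exact ⟨fun h => hdiscd p (h1 p h.1 h.2).1 (h1 p h.1 h.2).2, h2 p⟩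
    have hZall : ∀ p ∈ Z, (a * b) • p = p ∧ c • p = p ∧ (c * (a * b)) • p = p := fun p hp => by
      have h1 := mem_fixF.1 (hZd hp)
      exact ⟨h1, hcZ p hp, by rw [mul_smul, h1, hcZ p hp]⟩
    have e1 : (fixF (a * b) : Finset α) ∩ fixF c = Z :=
      hinter _ _ (fun p h1 h2 => ⟨h1, h2⟩) (fun p hp => ⟨(hZall p hp).1, (hZall p hp).2.1⟩)
    have e2 : (fixF (a * b) : Finset α) ∩ fixF (c * (a * b)) = Z :=
      hinter _ _ (fun p h1 h2 => ⟨h1, by rwa [mul_smul, h1] at h2⟩) (fun p hp => ⟨(hZall p hp).1, (hZall p hp).2.2⟩)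
    have e3 : (fixF c : Finset α) ∩ fixF (c * (a * b)) = Z :=
      hinter _ _ (fun p h1 h2 => by
        rw [mul_smul] at h2
        exact ⟨MulAction.injective c (h2.trans h1.symm), h1⟩) (fun p hp => ⟨(hZall p hp).2.1, (hZall p hp).2.2⟩)
    have hU : ((fixF (a * b) : Finset α) ∪ fixF c ∪ fixF (c * (a * b))).card = 2 * (f - 2) + 6 - (f - 2) := by
      have i1 := Finset.card_union_add_card_inter (fixF (a * b) : Finset α) (fixF c)
      have i2 := Finset.card_union_add_card_inter ((fixF (a * b) : Finset α) ∪ fixF c) (fixF (c * (a * b)))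
      rw [Finset.union_inter_distrib_right, e2, e3, Finset.union_idempotent, hZc, hfall _ K.he hne] at i2
      rw [e1, hZc, hfd, hfall c K.hc K.ne_one_c] at i1
      omega
    have hR : (Finset.univ.filter fun p : α => (a * b) • p ≠ p ∧ c • p ≠ p ∧ (c * (a * b)) • p ≠ p)
        = ((fixF (a * b) : Finset α) ∪ fixF c ∪ fixF (c * (a * b)))ᶜ := by
      ext p
      simp only [Finset.mem_filter, Finset.mem_univ, true_and, Finset.mem_compl, Finset.mem_union, mem_fixF, not_or]
      tauto
    have hCW : ccard (a * b) c = (n - (f + 4)) * W0 := by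
      rw [S.count K.hd K.hc K.hcd.symm K.pd K.pc, card_pat_regular K.hd K.hc K.hcd, hR, Finset.card_compl, hU, ← hn,
        ← hW0]
      congr 1
      omega
    -- the two four-groups are conjugate
    obtain ⟨w0, hw0⟩ : ((fixF c : Finset α) \ Z).Nonempty := by
      rw [← Finset.card_pos]
      have := Finset.le_card_sdiff Z (fixF c : Finset α)
      rw [hfall c K.hc K.ne_one_c, hZc] at this
      omega
    rw [Finset.mem_sdiff, mem_fixF] at hw0
    obtain ⟨hcw, hwz⟩ := hw0
    have hdw : (a * b) • w0 ≠ w0 := fun h => hwz (hdiscd w0 h hcw)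
    have hcdw : c • (a * b) • w0 = (a * b) • w0 := by rw [← mul_smul, K.hcd, mul_smul, hcw]
    have hu10 : c • u1 = u0 := by rw [← hcu, involution_smul K.hc]
    let y : Fin 4 ↪ α := mk4 u0 u1 w0 ((a * b) • w0) hu01
      (fun h => hdw (h ▸ hd0))
      (fun h => hdw (by have := hd0; rw [h, involution_smul K.hd] at this; exact this.symm))
      (fun h => hdw (h ▸ hd1))
      (fun h => hdw (by have := hd1; rw [h, involution_smul K.hd] at this; exact this.symm))
      (Ne.symm hdw)
    obtain ⟨g, -, g1, g2⟩ := S.transport K.ha K.hb K.hc K.hd K.hab K.hcd K.pa K.pb (z := y)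
      (pat_vec hcu hu10 hcw hcdw) (pat_vec hd0 hd1 rfl (involution_smul K.hd w0))
    have hsame : ccard a b = ccard (a * b) c := by
      have h := ccard_conj g a b
      rw [g1, g2] at h
      rw [← h]
      exact Nat.card_congr (Equiv.subtypeEquivRight fun g => and_comm)
    rw [hCV, hCW] at hsame
    have hn11 : f = 3 ∧ n = 11 := by
      rcases (show f = 2 ∨ f = 3 by omega) with rfl | rfl
      · exfalso
        have h1 : (2 * 2 - 2) * V0 = (n - 2 - 2) * W0 := hrel2
        have : 2 * ((n - 2 - 2) * W0) = (n - (2 + 4)) * W0 := by rw [← h1, ← hsame]; omega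
        rw [← mul_assoc] at this
        have := Nat.eq_of_mul_eq_mul_right hWpos this
        omega
      · refine ⟨rfl, ?_⟩
        have h1 : (3 * 3 - 3) * V0 = (n - 3 - 2) * W0 := hrel2
        have : 2 * ((n - 3 - 2) * W0) = 3 * ((n - (3 + 4)) * W0) := by rw [← h1, ← hsame]; omega
        rw [← mul_assoc, ← mul_assoc] at this
        have := Nat.eq_of_mul_eq_mul_right hWpos this
        omega
    obtain ⟨rfl, h11⟩ := hn11
    refine Or.inr ⟨hn ▸ h11, D, ?_⟩
    -- the centraliser of the regular four-group fixes everything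
    have hW1 : W0 = 1 := by
      rw [hW0, hcard]
      rw [Nat.card_eq_one_iff_unique]
      haveI := S.faith
      refine ⟨⟨fun g g' => Subtype.ext ?_⟩, ⟨⟨1, by simp⟩⟩⟩
      suffices H : ∀ g : {g : G // g • x = x ∧ g * (a * b) = a * b * g ∧ g * c = c * g}, g.1 = 1 by rw [H g, H g']
      rintro ⟨g, hgx, hgd, hgc⟩
      refine eq_of_smul_eq_smul (α := α) fun p => ?_
      rw [one_smul]
      have hcomFix : ∀ {v : G}, g * v = v * g → ∀ {p : α}, v • p = p → v • g • p = g • p := fun {v} hv {p} hp => by
        rw [← mul_smul, ← hv, mul_smul, hp]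
      have hgZ : ∀ p ∈ Z, g • p = p := fun p hp => by
        obtain ⟨h1, h2, -⟩ := hZall p hp
        exact Finset.card_le_one.1 (by rw [hZc]) _ (hdiscd _ (hcomFix hgd h1) (hcomFix hgc h2)) _ hp
      have hgZ' : ∀ p, g • p ∈ Z → p ∈ Z := fun p hp => by
        have e : g • p = p := MulAction.injective g (hgZ _ hp)
        rwa [e] at hp
      have hfix3 : ∀ v : G, v * v = 1 → v ≠ 1 → g * v = v * g → Z ⊆ fixF v → ∀ p : α, v • p = p → g • p = p := by
        intro v hv hv1 hgv hZv p hp
        by_cases hpz : p ∈ Z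
        · exact hgZ p hpz
        have h2 : ((fixF v : Finset α) \ Z).card = 2 := by
          rw [Finset.card_sdiff_of_subset hZv, hfall v hv hv1, hZc]
        obtain ⟨r, s, hrs, he⟩ := Finset.card_eq_two.1 h2
        have hmap : ∀ r', r' = r ∨ r' = s → g • r' = r ∨ g • r' = s := fun r' hr' => by
          have hr2 : r' ∈ (fixF v : Finset α) \ Z := by rw [he]; simpa using hr'
          rw [Finset.mem_sdiff, mem_fixF] at hr2
          have : g • r' ∈ (fixF v : Finset α) \ Z :=
            Finset.mem_sdiff.2 ⟨mem_fixF.2 (hcomFix hgv hr2.1), fun h => hr2.2 (hgZ' _ h)⟩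
          rw [he] at this; simpa using this
        have hp' : p = r ∨ p = s := by
          have : p ∈ (fixF v : Finset α) \ Z := Finset.mem_sdiff.2 ⟨mem_fixF.2 hp, hpz⟩
          rw [he] at this; simpa using this
        rcases hp' with rfl | rfl
        · exact odd_pair_fixed (S.odd x) hgx (hmap p (Or.inl rfl)) (hmap s (Or.inr rfl))
        · exact odd_pair_fixed (S.odd x) hgx (hmap p (Or.inr rfl)).symm (hmap r (Or.inl rfl)).symm
      by_cases hin : p ∈ (fixF (a * b) : Finset α) ∪ fixF c ∪ fixF (c * (a * b))
      · simp only [Finset.mem_union, mem_fixF] at hin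
        have hgd' : g * (c * (a * b)) = c * (a * b) * g :=
          (show Commute g c from hgc).mul_right (show Commute g (a * b) from hgd)
        rcases hin with (h | h) | h
        · exact hfix3 _ K.hd K.ne_one_d hgd hZd p h
        · exact hfix3 _ K.hc K.ne_one_c hgc (fun q hq => mem_fixF.2 (hZall q hq).2.1) p h
        · exact hfix3 _ K.he hne hgd' (fun q hq => mem_fixF.2 (hZall q hq).2.2) p h
      · -- the remaining four points are those of the tuple
        have hQ : Finset.univ.image x = ((fixF (a * b) : Finset α) ∪ fixF c ∪ fixF (c * (a * b)))ᶜ := by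
          refine Finset.eq_of_subset_of_card_le (fun q hq => ?_) ?_
          · obtain ⟨i, -, rfl⟩ := Finset.mem_image.1 hq
            simp only [Finset.mem_compl, Finset.mem_union, mem_fixF, K.pd i, K.pc i, K.pe i, x.injective.eq_iff]
            exact (by decide : ∀ i, ¬ ((πd i = i ∨ πc i = i) ∨ (![3, 2, 1, 0] : Fin 4 → Fin 4) i = i)) i
          · rw [Finset.card_compl, hU, Finset.card_image_of_injective _ x.injective, ← hn, h11]
            simp
        have : p ∈ Finset.univ.image x := by rw [hQ]; simpa using hin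
        obtain ⟨i, -, rfl⟩ := Finset.mem_image.1 this
        exact smul_eq_iff_all.1 hgx i
    rw [hW1, one_pow, mul_one] at hW
    rw [hW]; ring

end CfsgLib.JordanFour
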